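import Mathlib
import Cfsg.Prelude.Def_Transfer

set_option autoImplicit false

namespace Cfsg.Agent.Helper3

open Cfsg

/-- the structure of a group with a central involution `s` whose largest normal 2-subgroup
`QX` is extraspecial of order `2 ^ 7` and complemented by a copy of `SL(3, 2)` -/
structure CData (X : Type*) [Group X] (s : X) (QX EX KX : Subgroup X) : Prop where
  normal : QX.Normal
  card : Nat.card ↥QX = 128
  max : ∀ N : Subgroup X, N.Normal → IsPGroup 2 ↥N → N ≤ QX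
  s_mem : s ∈ QX
  s_ne : s ≠ 1
  s_sq : s * s = 1
  s_cen : ∀ x : X, x * s = s * x
  comm : ∀ p ∈ QX, ∀ q ∈ QX, p * q * p⁻¹ * q⁻¹ = 1 ∨ p * q * p⁻¹ * q⁻¹ = s
  self : ∀ c : X, (∀ q ∈ QX, c * q = q * c) → c = 1 ∨ c = s
  nonab : ∃ a ∈ QX, ∃ b ∈ QX, a * b ≠ b * a
  E_le : EX ≤ QX
  E_ea : IsElementaryAbelian 2 EX
  E_card : Nat.card ↥EX = 16
  inf : QX ⊓ KX = ⊥
  sup : QX ⊔ KX = ⊤
  iso : Nonempty (↥KX ≃* Matrix.SpecialLinearGroup (Fin 3) (ZMod 2))

end Cfsg.Agent.Helper3
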