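import Mathlib
import Cfsg.Prelude.Def_Transfer

set_option autoImplicit false

namespace Cfsg.Agent.Helper3

open Cfsg

/-- coordinates on an elementary abelian 2-group with a prescribed first basis vector -/
theorem ea_coords {G : Type*} [Group G] [Finite G] (U : Subgroup G)
    (hU : IsElementaryAbelian 2 U) (N : ℕ) (hcard : Nat.card ↥U = 2 ^ (N + 1)) (z : G)
    (hzU : z ∈ U) (hz1 : z ≠ 1) :
    ∃ (τ : (Fin (N + 1) → ZMod 2) → G) (τi : G → (Fin (N + 1) → ZMod 2)),
      (∀ a, τ a ∈ U) ∧ (∀ a b, τ (a + b) = τ a * τ b) ∧ (∀ a, τi (τ a) = a) ∧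
        (∀ u ∈ U, τ (τi u) = u) ∧ τ (Pi.single 0 1) = z := by
  classical
  letI : CommGroup ↥U :=
    { (inferInstance : Group ↥U) with mul_comm := fun a b => hU.1.is_comm.comm a b }
  have h2 : ∀ x : Additive ↥U, 2 • x = 0 := by
    intro x
    have h := hU.2 (Additive.toMul x).1 (Additive.toMul x).2
    have h' : (Additive.toMul x) ^ 2 = 1 := Subtype.ext h
    exact congrArg Additive.ofMul h'
  letI : Module (ZMod 2) (Additive ↥U) := AddCommGroup.zmodModule h2
  haveI : Finite (Additive ↥U) := inferInstanceAs (Finite ↥U)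
  haveI : Module.Finite (ZMod 2) (Additive ↥U) := Module.Finite.of_finite
  have hfr : Module.finrank (ZMod 2) (Additive ↥U) = N + 1 := by
    have h := Module.natCard_eq_pow_finrank (K := ZMod 2) (V := Additive ↥U)
    rw [Nat.card_zmod] at h
    have h' : Nat.card (Additive ↥U) = Nat.card ↥U := rfl
    rw [h', hcard] at h
    exact (Nat.pow_right_injective le_rfl h).symm
  obtain ⟨b, hb0⟩ : ∃ b : Module.Basis (Fin (N + 1)) (ZMod 2) (Additive ↥U),
      b 0 = Additive.ofMul (⟨z, hzU⟩ : ↥U) := by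
    have hzA : Additive.ofMul (⟨z, hzU⟩ : ↥U) ≠ 0 := by
      intro h
      apply hz1
      exact congrArg Subtype.val (show (⟨z, hzU⟩ : ↥U) = 1 from h)
    have hli : LinearIndepOn (ZMod 2) id ({Additive.ofMul (⟨z, hzU⟩ : ↥U)} : Set (Additive ↥U)) :=
      (linearIndepOn_singleton_iff (ZMod 2)).2 hzA
    have hmem : Additive.ofMul (⟨z, hzU⟩ : ↥U) ∈ hli.extend (Set.subset_univ _) :=
      Module.Basis.subset_extend hli (Set.mem_singleton _)
    haveI : Fintype ↑(hli.extend (Set.subset_univ _)) := Fintype.ofFinite _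
    have hcI : Fintype.card ↑(hli.extend (Set.subset_univ _)) = N + 1 := by
      rw [← Module.finrank_eq_card_basis (Module.Basis.extend hli), hfr]
    refine ⟨(Module.Basis.extend hli).reindex ((Fintype.equivFinOfCardEq hcI).trans
      (Equiv.swap (Fintype.equivFinOfCardEq hcI ⟨_, hmem⟩) 0)), ?_⟩
    rw [Module.Basis.reindex_apply]
    have e : ((Fintype.equivFinOfCardEq hcI).trans
        (Equiv.swap (Fintype.equivFinOfCardEq hcI ⟨_, hmem⟩) 0)).symm 0 = ⟨_, hmem⟩ := by
      rw [Equiv.symm_apply_eq, Equiv.trans_apply, Equiv.swap_apply_left]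
    rw [e, Module.Basis.extend_apply_self]
  refine ⟨fun a => ((Additive.toMul (b.equivFun.symm a) : ↥U) : G),
    fun g => if h : g ∈ U then b.equivFun (Additive.ofMul (⟨g, h⟩ : ↥U)) else 0, ?_, ?_, ?_, ?_, ?_⟩
  · intro a
    exact (Additive.toMul (b.equivFun.symm a)).2
  · intro a a'
    dsimp only
    rw [map_add]
    rfl
  · intro a
    have hm : ((Additive.toMul (b.equivFun.symm a) : ↥U) : G) ∈ U :=
      (Additive.toMul (b.equivFun.symm a)).2
    dsimp only
    rw [dif_pos hm]
    exact b.equivFun.apply_symm_apply a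
  · intro u hu
    dsimp only
    rw [dif_pos hu, LinearEquiv.symm_apply_apply]
    rfl
  · have e : b.equivFun.symm (Pi.single 0 1) = Additive.ofMul (⟨z, hzU⟩ : ↥U) := by
      rw [LinearEquiv.symm_apply_eq, ← hb0]
      funext j
      rw [Module.Basis.equivFun_self, Pi.single_apply]
      by_cases h : j = 0
      · rw [if_pos h, if_pos h.symm]
      · rw [if_neg h, if_neg (fun h' => h h'.symm)]
    dsimp only
    rw [e]
    rfl

end Cfsg.Agent.Helper3
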