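import Mathlib
import Cfsg.Agent.Helper11.LargeExtra4
import Cfsg.Agent.Helper11.ExtraExist
import Cfsg.Prelude.Def_MonsterType
import Cfsg.Prelude.Def_Solvable

set_option autoImplicit false

namespace Cfsg.Agent.Helper3

open Cfsg Cfsg.Agent.Helper11



/-- the structure of a group with a central involution `s` whose largest normal 2-subgroup
`QX` is extraspecial of order `2 ^ w` and complemented by a copy of `L` -/
structure CDataN (X : Type*) [Group X] (s : X) (QX EX KX : Subgroup X) (w e : ℕ)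
    (L : Type*) [Group L] : Prop where
  normal : QX.Normal
  card : Nat.card ↥QX = 2 ^ w
  max : ∀ N : Subgroup X, N.Normal → IsPGroup 2 ↥N → N ≤ QX
  s_mem : s ∈ QX
  s_ne : s ≠ 1
  s_sq : s * s = 1
  s_cen : ∀ x : X, x * s = s * x
  comm : ∀ p ∈ QX, ∀ q ∈ QX, p * q * p⁻¹ * q⁻¹ = 1 ∨ p * q * p⁻¹ * q⁻¹ = s
  self : ∀ c : X, (∀ q ∈ QX, c * q = q * c) → c = 1 ∨ c = s
  nonab : ∃ a ∈ QX, ∃ b ∈ QX, a * b ≠ b * a
  E_le : EX ≤ QX
  E_ea : IsElementaryAbelian 2 EX
  E_card : Nat.card ↥EX = 2 ^ e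
  inf : QX ⊓ KX = ⊥
  sup : QX ⊔ KX = ⊤
  iso : Nonempty (↥KX ≃* L)


/-- the `2`-core of the centralizer is the image of `QX` -/
theorem cdataN_core {G : Type*} [Group G] {X : Type*} [Group X] (s : X)
    (QX EX KX : Subgroup X) (w e : ℕ) (L : Type*) [Group L]
    (hd : CDataN X s QX EX KX w e L)
    (ι : X →* G) (hinj : Function.Injective ι) (z : G)
    (hrange : ι.range = Subgroup.centralizer ({z} : Set G)) :
    (Cfsg.pCore 2 ↥(Subgroup.centralizer ({z} : Set G))).map
      (Subgroup.centralizer ({z} : Set G)).subtype = QX.map ι := by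
  haveI : Fact (Nat.Prime 2) := ⟨Nat.prime_two⟩
  have hQ2 : IsPGroup 2 ↥QX := IsPGroup.of_card hd.card
  have hmem : ∀ x : X, ι x ∈ Subgroup.centralizer ({z} : Set G) := by
    intro x
    rw [← hrange]
    exact ⟨x, rfl⟩
  obtain ⟨θ, hθ⟩ : ∃ θ : X →* ↥(Subgroup.centralizer ({z} : Set G)),
      ∀ x, (θ x : G) = ι x := ⟨ι.codRestrict _ hmem, fun _ => rfl⟩
  have hθinj : Function.Injective θ := by
    intro x y h
    apply hinj
    rw [← hθ, ← hθ, h]
  have hθsurj : Function.Surjective θ := by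
    intro c
    have hc : (c : G) ∈ ι.range := by
      rw [hrange]
      exact c.2
    obtain ⟨x, hx⟩ := hc
    exact ⟨x, Subtype.ext ((hθ x).trans hx)⟩
  have hcomp : (Subgroup.centralizer ({z} : Set G)).subtype.comp θ = ι := by
    ext x
    exact hθ x
  have hcore : Cfsg.pCore 2 ↥(Subgroup.centralizer ({z} : Set G)) = QX.map θ := by
    apply le_antisymm
    · unfold Cfsg.pCore
      apply sSup_le
      rintro N ⟨hN, hp⟩
      have h1 : N.comap θ ≤ QX := hd.max _ (hN.comap θ) (hp.comap_of_injective θ hθinj)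
      intro x hx
      obtain ⟨y, rfl⟩ := hθsurj x
      exact Subgroup.mem_map_of_mem θ (h1 (Subgroup.mem_comap.2 hx))
    · unfold Cfsg.pCore
      apply le_sSup
      exact ⟨hd.normal.map θ hθsurj, hQ2.map θ⟩
  rw [hcore, Subgroup.map_map, hcomp]

theorem cdataN_transport {G : Type*} [Group G] [Finite G] {X : Type*} [Group X] (s : X)
    (QX EX KX : Subgroup X) (w e : ℕ) (L : Type*) [Group L]
    (hd : CDataN X s QX EX KX w e L)
    (ι : X →* G) (hinj : Function.Injective ι) (z : G) (hz : ι s = z)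
    (hrange : ι.range = Subgroup.centralizer ({z} : Set G))
    (g : G) (a : X) (ha : a ∈ QX) (hga : g * z * g⁻¹ = ι a) (hne : a ≠ s)
    (Q : Subgroup G)
    (hQ : Q = (Cfsg.pCore 2 ↥(Subgroup.centralizer ({z} : Set G))).map
      (Subgroup.centralizer ({z} : Set G)).subtype) :
    Cfsg.IsExtraspecial 2 ↥Q ∧ Nat.card ↥Q = 2 ^ w ∧
      (∃ E : Subgroup G, E ≤ Q ∧ Cfsg.IsElementaryAbelian 2 E ∧ Nat.card ↥E = 2 ^ e) ∧
      Cfsg.IsLargeExtraspecial Q ∧
      ∃ K : Subgroup G, K ≤ Subgroup.centralizer ({z} : Set G) ∧ Q ⊓ K = ⊥ ∧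
        Q ⊔ K = Subgroup.centralizer ({z} : Set G) ∧
        Nonempty (↥K ≃* L) := by
  haveI : Fact (Nat.Prime 2) := ⟨Nat.prime_two⟩
  have hQ' : Q = QX.map ι := hQ.trans (cdataN_core s QX EX KX w e L hd ι hinj z hrange)
  clear hQ
  subst hQ'
  subst hz
  have hQX2 : IsPGroup 2 ↥QX := IsPGroup.of_card hd.card
  have hzQ : ι s ∈ QX.map ι := Subgroup.mem_map_of_mem ι hd.s_mem
  have hz2 : ι s * ι s = 1 := by rw [← map_mul, hd.s_sq, map_one]
  have hz1 : ι s ≠ 1 := fun h => hd.s_ne (hinj (h.trans (map_one ι).symm))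
  have hQ2 : IsPGroup 2 ↥(QX.map ι) := hQX2.map ι
  have hQC : ∀ q ∈ QX.map ι, q * ι s = ι s * q := by
    rintro _ ⟨x, -, rfl⟩
    rw [← map_mul, ← map_mul, hd.s_cen]
  have hrg : ∀ c : G, c * ι s = ι s * c → c ∈ ι.range := by
    intro c hc
    rw [hrange, Subgroup.mem_centralizer_iff]
    intro h hh
    rw [Set.mem_singleton_iff] at hh
    rw [hh]
    exact hc.symm
  have hQN : ∀ c : G, c * ι s = ι s * c → ∀ q ∈ QX.map ι, c * q * c⁻¹ ∈ QX.map ι := by
    intro c hc q hq
    obtain ⟨y, rfl⟩ := hrg c hc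
    obtain ⟨x, hx, rfl⟩ := hq
    rw [← map_inv, ← map_mul, ← map_mul]
    exact Subgroup.mem_map_of_mem ι (hd.normal.conj_mem x hx y)
  have hcomm : ∀ p ∈ QX.map ι, ∀ q ∈ QX.map ι,
      p * q * p⁻¹ * q⁻¹ = 1 ∨ p * q * p⁻¹ * q⁻¹ = ι s := by
    rintro _ ⟨x, hx, rfl⟩ _ ⟨y, hy, rfl⟩
    rw [← map_inv, ← map_inv, ← map_mul, ← map_mul, ← map_mul]
    rcases hd.comm x hx y hy with h | h
    · left
      rw [h, map_one]
    · right
      rw [h]
  have hself : ∀ c : G, (∀ q ∈ QX.map ι, c * q = q * c) → c = 1 ∨ c = ι s := by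
    intro c hc
    obtain ⟨y, rfl⟩ := hrg c (hc _ hzQ)
    have hy : ∀ q ∈ QX, y * q = q * y := by
      intro q hq
      apply hinj
      rw [map_mul, map_mul]
      exact hc _ (Subgroup.mem_map_of_mem ι hq)
    rcases hd.self y hy with h | h
    · left
      rw [h, map_one]
    · right
      rw [h]
  have hcen : ∀ ζ ∈ QX.map ι, (∀ q ∈ QX.map ι, q * ζ = ζ * q) → ζ = 1 ∨ ζ = ι s :=
    fun ζ _ h => hself ζ (fun q hq => (h q hq).symm)
  have hcenter : ∀ w : ↥(QX.map ι), w ∈ Subgroup.center ↥(QX.map ι) ↔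
      w = 1 ∨ w = ⟨ι s, hzQ⟩ := by
    intro w
    constructor
    · intro hw
      rw [Subgroup.mem_center_iff] at hw
      rcases hcen w.1 w.2 (fun q hq => congrArg Subtype.val (hw ⟨q, hq⟩)) with h | h
      · left
        exact Subtype.ext h
      · right
        exact Subtype.ext h
    · rintro (rfl | rfl)
      · exact Subgroup.one_mem _
      · rw [Subgroup.mem_center_iff]
        intro q
        exact Subtype.ext (hQC q.1 q.2)
  have hES : Cfsg.IsExtraspecial 2 ↥(QX.map ι) := by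
    apply centTwo_extraspecial
    · constructor
      · intro p q
        rcases hcomm p.1 p.2 q.1 q.2 with h | h
        · exact (hcenter _).2 (Or.inl (Subtype.ext h))
        · exact (hcenter _).2 (Or.inr (Subtype.ext h))
      · rw [Nat.card_eq_two_iff]
        refine ⟨⟨1, Subgroup.one_mem _⟩, ⟨⟨ι s, hzQ⟩, (hcenter _).2 (Or.inr rfl)⟩, ?_, ?_⟩
        · intro h
          have h1 : (1 : G) = ι s := congrArg (fun t : ↥(Subgroup.center ↥(QX.map ι)) => (t.1.1 : G)) h
          exact hz1 h1.symm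
        · rw [Set.eq_univ_iff_forall]
          intro w
          rcases (hcenter w.1).1 w.2 with h | h
          · left
            exact Subtype.ext h
          · right
            exact Subtype.ext h
    · obtain ⟨a', ha', b', hb', hab⟩ := hd.nonab
      refine ⟨⟨ι a', Subgroup.mem_map_of_mem ι ha'⟩, ⟨ι b', Subgroup.mem_map_of_mem ι hb'⟩, ?_⟩
      intro h
      have h1 : ι a' * ι b' = ι b' * ι a' := congrArg Subtype.val h
      rw [← map_mul, ← map_mul] at h1
      exact hab (hinj h1)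
  refine ⟨hES, ?_, ?_, ?_, ?_⟩
  · rw [Subgroup.card_map_of_injective hinj, hd.card]
  · refine ⟨EX.map ι, Subgroup.map_mono hd.E_le, ?_, ?_⟩
    · haveI := hd.E_ea.1
      refine ⟨inferInstance, ?_⟩
      rintro _ ⟨x, hx, rfl⟩
      rw [← map_pow, hd.E_ea.2 x hx, map_one]
    · rw [Subgroup.card_map_of_injective hinj, hd.E_card]
  · refine ⟨hES, ?_, ?_, ?_⟩
    · ext c
      constructor
      · intro hc
        rw [Subgroup.mem_centralizer_iff] at hc
        rcases hself c (fun q hq => (hc q hq).symm) with h | h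
        · rw [h]
          exact Subgroup.one_mem _
        · rw [h]
          exact Subgroup.mem_map.2 ⟨⟨ι s, hzQ⟩, (hcenter _).2 (Or.inr rfl), rfl⟩
      · rintro ⟨w, hw, rfl⟩
        rcases (hcenter w).1 hw with rfl | rfl
        · exact Subgroup.one_mem _
        · rw [Subgroup.mem_centralizer_iff]
          intro q hq
          exact hQC q hq
    · intro c hc
      rw [Subgroup.mem_centralizer_iff] at hc
      have hcz : Commute c (ι s) :=
        (hc (ι s) (Subgroup.mem_map.2 ⟨⟨ι s, hzQ⟩, (hcenter _).2 (Or.inr rfl), rfl⟩)).symm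
      rw [Subgroup.mem_normalizer_iff]
      intro h
      constructor
      · intro hh
        exact hQN c hcz.eq h hh
      · intro hh
        have h1 := hQN c⁻¹ hcz.inv_left.eq _ hh
        have e : c⁻¹ * (c * h * c⁻¹) * c⁻¹⁻¹ = h := by group
        rw [e] at h1
        exact h1
    · intro K hK hQK
      have haQ : g * ι s * g⁻¹ ∈ QX.map ι := by
        rw [hga]
        exact Subgroup.mem_map_of_mem ι ha
      have hne' : g * ι s * g⁻¹ ≠ ι s := by
        rw [hga]
        exact fun h => hne (hinj h)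
      exact large_odd_of_conj (QX.map ι) (ι s) hzQ hz2 hz1 hQ2 hQC hQN hcomm hcen hself g haQ
        hne' K hK (fun q hq k hk => (Subgroup.mem_normalizer_iff.1 (hQK hq) k).1 hk)
  · refine ⟨KX.map ι, ?_, ?_, ?_, ?_⟩
    · rintro _ ⟨x, -, rfl⟩
      rw [← hrange]
      exact ⟨x, rfl⟩
    · rw [← Subgroup.map_inf _ _ ι hinj, hd.inf, Subgroup.map_bot]
    · rw [← Subgroup.map_sup, hd.sup, ← MonoidHom.range_eq_map, hrange]
    · obtain ⟨e⟩ := hd.iso
      exact ⟨(KX.equivMapOfInjective ι hinj).symm.trans e⟩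

end Cfsg.Agent.Helper3
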