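import Mathlib

set_option autoImplicit false

namespace Cfsg.Agent.Helper3

theorem zt_cases (a : ZMod 2) : a = 0 ∨ a = 1 := by
  revert a; decide

theorem zt_unit (a b : ZMod 2) (h : a * b = 1) : a = 1 := by
  revert a b; decide

theorem zt_add_eq_zero (a b : ZMod 2) (h : a + b = 0) : a = b := by
  revert a b; decide

theorem zt_add_eq_one (a b : ZMod 2) (h : a + b = 1) : a = 1 + b := by
  revert a b; decide

theorem zt_double (a : ZMod 2) : a + a = 0 := by
  revert a; decide

/-- `SL(n, 2)` has no non-trivial normal 2-subgroup (for `n ≥ 2`) -/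
theorem sl2_o2 (n : ℕ) (hn : 2 ≤ n) (N : Subgroup (Matrix.SpecialLinearGroup (Fin n) (ZMod 2)))
    (hN : N.Normal) (hp : IsPGroup 2 ↥N) : N = ⊥ := by
  haveI : Fact (Nat.Prime 2) := ⟨Nat.prime_two⟩
  letI act : MulAction ↥N (Fin n → ZMod 2) :=
    { smul := fun y w => y.1.1.mulVec w
      one_smul := fun w => Matrix.one_mulVec w
      mul_smul := fun x y w => (Matrix.mulVec_mulVec w x.1.1 y.1.1).symm }
  have hsm : ∀ (y : ↥N) (w : Fin n → ZMod 2), y • w = y.1.1.mulVec w := fun _ _ => rfl
  have hdvd : 2 ∣ Nat.card (Fin n → ZMod 2) := by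
    rw [Nat.card_fun, Nat.card_zmod, Nat.card_fin]
    exact dvd_pow_self 2 (by omega)
  have h0 : (0 : Fin n → ZMod 2) ∈ MulAction.fixedPoints ↥N (Fin n → ZMod 2) := by
    intro y
    rw [hsm, Matrix.mulVec_zero]
  obtain ⟨w, hw, hw0⟩ := hp.exists_fixed_point_of_prime_dvd_card_of_fixed_point (Fin n → ZMod 2) hdvd h0
  have hfix : ∀ y ∈ N, y.1.mulVec w = w := fun y hy => hw ⟨y, hy⟩
  have hadd : ∀ u v : Fin n → ZMod 2, (∀ y ∈ N, y.1.mulVec u = u) →
      (∀ y ∈ N, y.1.mulVec v = v) → ∀ y ∈ N, y.1.mulVec (u + v) = u + v := by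
    intro u v hu hv y hy
    rw [Matrix.mulVec_add, hu y hy, hv y hy]
  have hconj : ∀ (g : Matrix.SpecialLinearGroup (Fin n) (ZMod 2)) (v : Fin n → ZMod 2),
      (∀ y ∈ N, y.1.mulVec v = v) → ∀ y ∈ N, y.1.mulVec (g.1.mulVec v) = g.1.mulVec v := by
    intro g v hv y hy
    have h1 : g⁻¹ * y * g ∈ N := by
      have h := hN.conj_mem y hy g⁻¹
      rwa [inv_inv] at h
    have h2 := hv _ h1
    have e : y.1 * g.1 = g.1 * (g⁻¹ * y * g).1 := by
      have e0 : g * (g⁻¹ * y * g) = y * g := by rw [mul_assoc, mul_inv_cancel_left]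
      rw [← Matrix.SpecialLinearGroup.coe_mul, ← Matrix.SpecialLinearGroup.coe_mul, e0]
    rw [Matrix.mulVec_mulVec, e, ← Matrix.mulVec_mulVec, h2]
  have htv : ∀ (a b : Fin n), a ≠ b → ∀ v : Fin n → ZMod 2, (∀ y ∈ N, y.1.mulVec v = v) →
      ∀ y ∈ N, y.1.mulVec (Pi.single b (v a)) = Pi.single b (v a) := by
    intro a b hab v hv
    obtain ⟨g, hg⟩ : ∃ g : Matrix.SpecialLinearGroup (Fin n) (ZMod 2),
        g.1 = Matrix.transvection b a 1 :=
      ⟨⟨_, Matrix.det_transvection_of_ne b a hab.symm 1⟩, rfl⟩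
    have h1 := hconj g v hv
    have e : g.1.mulVec v = v + Pi.single b (v a) := by
      rw [hg]
      unfold Matrix.transvection
      rw [Matrix.add_mulVec, Matrix.one_mulVec, Matrix.single_mulVec, one_mul]
      rfl
    rw [e] at h1
    have h2 := hadd _ _ h1 hv
    have e2 : v + Pi.single b (v a) + v = Pi.single b (v a) := by
      funext k
      simp only [Pi.add_apply]
      have h3 := zt_double (v k)
      linear_combination h3
    rw [e2] at h2
    exact h2
  obtain ⟨a, ha⟩ : ∃ a, w a = 1 := by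
    by_contra hne
    push Not at hne
    apply hw0
    funext k
    rcases zt_cases (w k) with h | h
    · exact h.symm
    · exact absurd h (hne k)
  have hb : ∀ b, b ≠ a → ∀ y ∈ N, y.1.mulVec (Pi.single b 1) = Pi.single b 1 := by
    intro b hb
    have h1 := htv a b hb.symm w hfix
    rw [ha] at h1
    exact h1
  have hsingle : ∀ k : Fin n, ∀ y ∈ N, y.1.mulVec (Pi.single k 1) = Pi.single k 1 := by
    intro k
    by_cases hk : k = a
    · obtain ⟨b', hb'⟩ : ∃ b' : Fin n, b' ≠ a := by
        by_cases h : a.1 = 0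
        · refine ⟨⟨1, by omega⟩, ?_⟩
          intro h'
          have h'' := congrArg Fin.val h'
          simp only at h''
          omega
        · refine ⟨⟨0, by omega⟩, ?_⟩
          intro h'
          have h'' := congrArg Fin.val h'
          simp only at h''
          omega
      have h1 := htv b' a hb' (Pi.single b' 1) (hb b' hb')
      rw [Pi.single_eq_same] at h1
      rw [hk]
      exact h1
    · exact hb k hk
  rw [eq_bot_iff]
  intro y hy
  rw [Subgroup.mem_bot]
  apply Subtype.ext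
  ext i k
  have h1 := congrFun (hsingle k y hy) i
  rw [Matrix.mulVec_single_one, Pi.single_apply] at h1
  rw [Matrix.SpecialLinearGroup.coe_one, Matrix.one_apply]
  exact h1

end Cfsg.Agent.Helper3
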