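import Mathlib
import Cfsg.Agent.Helper3.Pat.TrvCent
import Cfsg.Agent.Helper3.Pat.SLO2

set_option autoImplicit false

namespace Cfsg.Agent.Helper3

open Cfsg

section TrvQ

variable {n : ℕ}

/-- the embedding of the last `n` indices -/
def tqS (k : Fin n) : Fin (n + 2) := k.succ.succ

theorem tqS_ne_zero (k : Fin n) : tqS k ≠ 0 := Fin.succ_ne_zero _

theorem tqS_ne_one (k : Fin n) : tqS k ≠ 1 := Fin.succ_succ_ne_one k

theorem zero_ne_tqS (k : Fin n) : (0 : Fin (n + 2)) ≠ tqS k := (tqS_ne_zero k).symm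

theorem one_ne_tqS (k : Fin n) : (1 : Fin (n + 2)) ≠ tqS k := (tqS_ne_one k).symm

theorem tqS_inj {k l : Fin n} : tqS k = tqS l ↔ k = l := by
  unfold tqS
  rw [Fin.succ_inj, Fin.succ_inj]

theorem tq01 : (0 : Fin (n + 2)) ≠ 1 := Fin.zero_ne_one

theorem tq10 : (1 : Fin (n + 2)) ≠ 0 := Fin.zero_ne_one.symm

theorem tq_sum (f : Fin (n + 2) → ZMod 2) : ∑ m, f m = f 0 + f 1 + ∑ k : Fin n, f (tqS k) := by
  rw [Fin.sum_univ_succ, Fin.sum_univ_succ, Fin.succ_zero_eq_one]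
  exact (add_assoc (f 0) (f 1) _).symm

theorem tq_cases (P : Fin (n + 2) → Prop) (p0 : P 0) (p1 : P 1) (ps : ∀ k, P (tqS k)) :
    ∀ a, P a := by
  intro a
  refine Fin.cases p0 (fun a' => ?_) a
  refine Fin.cases ?_ (fun k => ps k) a'
  rw [Fin.succ_zero_eq_one]
  exact p1

theorem tq_ext (M N : Matrix (Fin (n + 2)) (Fin (n + 2)) (ZMod 2))
    (h00 : M 0 0 = N 0 0) (h01 : M 0 1 = N 0 1) (h0s : ∀ l, M 0 (tqS l) = N 0 (tqS l))
    (h10 : M 1 0 = N 1 0) (h11 : M 1 1 = N 1 1) (h1s : ∀ l, M 1 (tqS l) = N 1 (tqS l))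
    (hs0 : ∀ k, M (tqS k) 0 = N (tqS k) 0) (hs1 : ∀ k, M (tqS k) 1 = N (tqS k) 1)
    (hss : ∀ k l, M (tqS k) (tqS l) = N (tqS k) (tqS l)) : M = N := by
  ext a b
  revert b
  refine tq_cases (fun a => ∀ b, M a b = N a b) ?_ ?_ ?_ a
  · exact tq_cases (fun b => M 0 b = N 0 b) h00 h01 h0s
  · exact tq_cases (fun b => M 1 b = N 1 b) h10 h11 h1s
  · intro k
    exact tq_cases (fun b => M (tqS k) b = N (tqS k) b) (hs0 k) (hs1 k) (hss k)

/-! entries of the identity -/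

theorem tq1_00 : (1 : Matrix (Fin (n + 2)) (Fin (n + 2)) (ZMod 2)) 0 0 = 1 := Matrix.one_apply_eq 0
theorem tq1_01 : (1 : Matrix (Fin (n + 2)) (Fin (n + 2)) (ZMod 2)) 0 1 = 0 :=
  Matrix.one_apply_ne tq01
theorem tq1_0s (l : Fin n) : (1 : Matrix (Fin (n + 2)) (Fin (n + 2)) (ZMod 2)) 0 (tqS l) = 0 :=
  Matrix.one_apply_ne (zero_ne_tqS l)
theorem tq1_10 : (1 : Matrix (Fin (n + 2)) (Fin (n + 2)) (ZMod 2)) 1 0 = 0 :=
  Matrix.one_apply_ne tq10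
theorem tq1_11 : (1 : Matrix (Fin (n + 2)) (Fin (n + 2)) (ZMod 2)) 1 1 = 1 := Matrix.one_apply_eq 1
theorem tq1_1s (l : Fin n) : (1 : Matrix (Fin (n + 2)) (Fin (n + 2)) (ZMod 2)) 1 (tqS l) = 0 :=
  Matrix.one_apply_ne (one_ne_tqS l)
theorem tq1_s0 (k : Fin n) : (1 : Matrix (Fin (n + 2)) (Fin (n + 2)) (ZMod 2)) (tqS k) 0 = 0 :=
  Matrix.one_apply_ne (tqS_ne_zero k)
theorem tq1_s1 (k : Fin n) : (1 : Matrix (Fin (n + 2)) (Fin (n + 2)) (ZMod 2)) (tqS k) 1 = 0 :=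
  Matrix.one_apply_ne (tqS_ne_one k)
theorem tq1_ss (k l : Fin n) :
    (1 : Matrix (Fin (n + 2)) (Fin (n + 2)) (ZMod 2)) (tqS k) (tqS l) =
      (1 : Matrix (Fin n) (Fin n) (ZMod 2)) k l := by
  rw [Matrix.one_apply, Matrix.one_apply]
  by_cases h : k = l
  · rw [if_pos (tqS_inj.2 h), if_pos h]
  · rw [if_neg (fun h' => h (tqS_inj.1 h')), if_neg h]

/-- the lower right block -/
def tqB (M : Matrix (Fin (n + 2)) (Fin (n + 2)) (ZMod 2)) : Matrix (Fin n) (Fin n) (ZMod 2) :=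
  fun k l => M (tqS k) (tqS l)

theorem tqB_apply (M : Matrix (Fin (n + 2)) (Fin (n + 2)) (ZMod 2)) (k l : Fin n) :
    tqB M k l = M (tqS k) (tqS l) := rfl

theorem tqB_mul (M N : Matrix (Fin (n + 2)) (Fin (n + 2)) (ZMod 2))
    (hcol : ∀ k, M (tqS k) 0 = 0) (hrow : ∀ l, N 1 (tqS l) = 0) :
    tqB (M * N) = tqB M * tqB N := by
  ext k l
  rw [tqB_apply, Matrix.mul_apply, tq_sum, hcol, hrow, zero_mul, mul_zero, zero_add, zero_add,
    Matrix.mul_apply]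
  rfl

theorem tqB_one : tqB (1 : Matrix (Fin (n + 2)) (Fin (n + 2)) (ZMod 2)) = 1 := by
  ext k l
  rw [tqB_apply, tq1_ss]

/-- the block diagonal embedding -/
def tqD (B : Matrix (Fin n) (Fin n) (ZMod 2)) : Matrix (Fin (n + 2)) (Fin (n + 2)) (ZMod 2) :=
  fun a b => Fin.cases (Fin.cases 1 (fun _ => 0) b)
    (fun a' => Fin.cases (Fin.cases 0 (fun b' => Fin.cases 1 (fun _ => 0) b') b)
      (fun k => Fin.cases 0 (fun b' => Fin.cases 0 (fun l => B k l) b') b) a') a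

variable (B : Matrix (Fin n) (Fin n) (ZMod 2))

theorem tqD_00 : tqD B 0 0 = 1 := rfl
theorem tqD_01 : tqD B 0 1 = 0 := rfl
theorem tqD_0s (l : Fin n) : tqD B 0 (tqS l) = 0 := rfl
theorem tqD_10 : tqD B 1 0 = 0 := rfl
theorem tqD_11 : tqD B 1 1 = 1 := rfl
theorem tqD_1s (l : Fin n) : tqD B 1 (tqS l) = 0 := rfl
theorem tqD_s0 (k : Fin n) : tqD B (tqS k) 0 = 0 := rfl
theorem tqD_s1 (k : Fin n) : tqD B (tqS k) 1 = 0 := rfl
theorem tqD_ss (k l : Fin n) : tqD B (tqS k) (tqS l) = B k l := rfl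

theorem tqB_D : tqB (tqD B) = B := rfl

theorem tqD_one : tqD (1 : Matrix (Fin n) (Fin n) (ZMod 2)) = 1 := by
  apply tq_ext
  · rw [tqD_00, tq1_00]
  · rw [tqD_01, tq1_01]
  · intro l; rw [tqD_0s, tq1_0s]
  · rw [tqD_10, tq1_10]
  · rw [tqD_11, tq1_11]
  · intro l; rw [tqD_1s, tq1_1s]
  · intro k; rw [tqD_s0, tq1_s0]
  · intro k; rw [tqD_s1, tq1_s1]
  · intro k l; rw [tqD_ss, tq1_ss]

theorem tqD_mul (B C : Matrix (Fin n) (Fin n) (ZMod 2)) : tqD (B * C) = tqD B * tqD C := by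
  apply tq_ext
  · simp [Matrix.mul_apply, tq_sum, tqD_00, tqD_01, tqD_0s, tqD_10, tqD_s0]
  · simp [Matrix.mul_apply, tq_sum, tqD_00, tqD_01, tqD_0s, tqD_11, tqD_s1]
  · intro l
    simp [Matrix.mul_apply, tq_sum, tqD_00, tqD_01, tqD_0s, tqD_1s, tqD_ss]
  · simp [Matrix.mul_apply, tq_sum, tqD_00, tqD_10, tqD_11, tqD_1s, tqD_s0]
  · simp [Matrix.mul_apply, tq_sum, tqD_01, tqD_10, tqD_11, tqD_1s, tqD_s1]
  · intro l
    simp [Matrix.mul_apply, tq_sum, tqD_0s, tqD_10, tqD_11, tqD_1s, tqD_ss]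
  · intro k
    simp [Matrix.mul_apply, tq_sum, tqD_00, tqD_10, tqD_s0, tqD_s1, tqD_ss]
  · intro k
    simp [Matrix.mul_apply, tq_sum, tqD_01, tqD_11, tqD_s0, tqD_s1, tqD_ss]
  · intro k l
    simp [Matrix.mul_apply, tq_sum, tqD_0s, tqD_1s, tqD_s0, tqD_s1, tqD_ss]

theorem tqD_col (a : Fin (n + 2)) : tqD B a 0 = if a = 0 then 1 else 0 := by
  revert a
  refine tq_cases _ ?_ ?_ ?_
  · rw [tqD_00, if_pos rfl]
  · rw [tqD_10, if_neg tq10]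
  · intro k
    rw [tqD_s0, if_neg (tqS_ne_zero k)]

theorem tqD_row (b : Fin (n + 2)) : tqD B 1 b = if b = 1 then 1 else 0 := by
  revert b
  refine tq_cases _ ?_ ?_ ?_
  · rw [tqD_10, if_neg tq01]
  · rw [tqD_11, if_pos rfl]
  · intro l
    rw [tqD_1s, if_neg (tqS_ne_one l)]

/-- the matrices of the kernel -/
def tqM (c : ZMod 2) (u v : Fin n → ZMod 2) : Matrix (Fin (n + 2)) (Fin (n + 2)) (ZMod 2) :=
  fun a b => Fin.cases (Fin.cases 1 (fun b' => Fin.cases c (fun l => u l) b') b)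
    (fun a' => Fin.cases (Fin.cases 0 (fun b' => Fin.cases 1 (fun _ => 0) b') b)
      (fun k => Fin.cases 0 (fun b' => Fin.cases (v k) (fun l => if k = l then 1 else 0) b') b)
      a') a

variable (c : ZMod 2) (u v : Fin n → ZMod 2)

theorem tqM_00 : tqM c u v 0 0 = 1 := rfl
theorem tqM_01 : tqM c u v 0 1 = c := rfl
theorem tqM_0s (l : Fin n) : tqM c u v 0 (tqS l) = u l := rfl
theorem tqM_10 : tqM c u v 1 0 = 0 := rfl
theorem tqM_11 : tqM c u v 1 1 = 1 := rfl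
theorem tqM_1s (l : Fin n) : tqM c u v 1 (tqS l) = 0 := rfl
theorem tqM_s0 (k : Fin n) : tqM c u v (tqS k) 0 = 0 := rfl
theorem tqM_s1 (k : Fin n) : tqM c u v (tqS k) 1 = v k := rfl
theorem tqM_ss (k l : Fin n) : tqM c u v (tqS k) (tqS l) = if k = l then 1 else 0 := rfl

theorem tqM_B : tqB (tqM c u v) = 1 := by
  ext k l
  rw [tqB_apply, tqM_ss, Matrix.one_apply]

theorem tqM_zero : tqM (0 : ZMod 2) (0 : Fin n → ZMod 2) 0 = 1 := by
  apply tq_ext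
  · rw [tqM_00, tq1_00]
  · rw [tqM_01, tq1_01]
  · intro l; rw [tqM_0s, tq1_0s]; rfl
  · rw [tqM_10, tq1_10]
  · rw [tqM_11, tq1_11]
  · intro l; rw [tqM_1s, tq1_1s]
  · intro k; rw [tqM_s0, tq1_s0]
  · intro k; rw [tqM_s1, tq1_s1]; rfl
  · intro k l; rw [tqM_ss, tq1_ss, Matrix.one_apply]

theorem tqM_mul (c' : ZMod 2) (u' v' : Fin n → ZMod 2) :
    tqM c u v * tqM c' u' v' = tqM (c + c' + u ⬝ᵥ v') (u + u') (v + v') := by
  apply tq_ext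
  · simp [Matrix.mul_apply, tq_sum, tqM_00, tqM_01, tqM_0s, tqM_10, tqM_s0]
  · simp [Matrix.mul_apply, tq_sum, tqM_00, tqM_01, tqM_0s, tqM_11, tqM_s1, dotProduct]
    ring
  · intro l
    simp [Matrix.mul_apply, tq_sum, tqM_00, tqM_01, tqM_0s, tqM_1s, tqM_ss]
    ring
  · simp [Matrix.mul_apply, tq_sum, tqM_00, tqM_10, tqM_11, tqM_1s, tqM_s0]
  · simp [Matrix.mul_apply, tq_sum, tqM_01, tqM_10, tqM_11, tqM_1s, tqM_s1]
  · intro l
    simp [Matrix.mul_apply, tq_sum, tqM_0s, tqM_10, tqM_11, tqM_1s, tqM_ss]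
  · intro k
    simp [Matrix.mul_apply, tq_sum, tqM_00, tqM_10, tqM_s0, tqM_s1, tqM_ss]
  · intro k
    simp [Matrix.mul_apply, tq_sum, tqM_01, tqM_11, tqM_s0, tqM_s1, tqM_ss]
  · intro k l
    simp [Matrix.mul_apply, tq_sum, tqM_0s, tqM_1s, tqM_s0, tqM_s1, tqM_ss]

theorem tqM_col (a : Fin (n + 2)) : tqM c u v a 0 = if a = 0 then 1 else 0 := by
  revert a
  refine tq_cases _ ?_ ?_ ?_
  · rw [tqM_00, if_pos rfl]
  · rw [tqM_10, if_neg tq10]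
  · intro k
    rw [tqM_s0, if_neg (tqS_ne_zero k)]

theorem tqM_row (b : Fin (n + 2)) : tqM c u v 1 b = if b = 1 then 1 else 0 := by
  revert b
  refine tq_cases _ ?_ ?_ ?_
  · rw [tqM_10, if_neg tq01]
  · rw [tqM_11, if_pos rfl]
  · intro l
    rw [tqM_1s, if_neg (tqS_ne_one l)]

end TrvQ

end Cfsg.Agent.Helper3
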