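import Mathlib
import Cfsg.Agent.Helper3.Pat.TrvQ
import Cfsg.Agent.Helper3.Pat.CentTransportN

set_option autoImplicit false

namespace Cfsg.Agent.Helper3

open Cfsg

section TrvQ2

variable {n : ℕ}

/-- the centralizer of the transvection -/
abbrev tqC (z : Matrix.SpecialLinearGroup (Fin (n + 2)) (ZMod 2)) :
    Subgroup (Matrix.SpecialLinearGroup (Fin (n + 2)) (ZMod 2)) :=
  Subgroup.centralizer ({z} : Set (Matrix.SpecialLinearGroup (Fin (n + 2)) (ZMod 2)))

theorem trv_comm_of {N : ℕ} (i j : Fin N) (M : Matrix (Fin N) (Fin N) (ZMod 2))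
    (hcol : ∀ a, M a i = if a = i then 1 else 0) (hrow : ∀ b, M j b = if b = j then 1 else 0) :
    M * Matrix.transvection i j 1 = Matrix.transvection i j 1 * M := by
  ext a b
  rw [trvL, trvR, hcol, hrow]
  by_cases ha : a = i <;> by_cases hb : b = j <;> simp [ha, hb]

theorem trv_cent_row {N : ℕ} (i j : Fin N)
    (t : Matrix.SpecialLinearGroup (Fin N) (ZMod 2))
    (ht : (t : Matrix (Fin N) (Fin N) (ZMod 2)) = Matrix.transvection i j 1)
    (g : ↥(Subgroup.centralizer ({t} : Set (Matrix.SpecialLinearGroup (Fin N) (ZMod 2))))) :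
    ∀ b, g.1.1 j b = if b = j then 1 else 0 := by
  intro b
  have h := Subgroup.mem_centralizer_iff.1 g.2 t (Set.mem_singleton t)
  have h' : t.1 * g.1.1 = g.1.1 * t.1 := congrArg Subtype.val h
  rw [ht] at h'
  have h1 := congrFun (congrFun h' i) b
  rw [trvR, trvL, if_pos rfl] at h1
  have h2 := add_left_cancel h1
  rw [h2, trv_cent_col (ZMod.card 2) i j t ht g i, if_pos rfl]

theorem tqD_det (B : Matrix.SpecialLinearGroup (Fin n) (ZMod 2)) : (tqD B.1).det = 1 := by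
  have h : tqD B.1 * tqD (B⁻¹).1 = 1 := by
    rw [← tqD_mul, ← Matrix.SpecialLinearGroup.coe_mul, mul_inv_cancel,
      Matrix.SpecialLinearGroup.coe_one, tqD_one]
  have h2 := congrArg Matrix.det h
  rw [Matrix.det_mul, Matrix.det_one] at h2
  exact zt_unit _ _ h2

theorem tqM_det (c : ZMod 2) (u v : Fin n → ZMod 2) : (tqM c u v).det = 1 := by
  have h : tqM c u v * tqM (c + u ⬝ᵥ v) u v = 1 := by
    rw [tqM_mul, ← tqM_zero]
    have e1 : c + (c + u ⬝ᵥ v) + u ⬝ᵥ v = 0 := by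
      have h1 := zt_double c
      have h2 := zt_double (u ⬝ᵥ v)
      linear_combination h1 + h2
    have e2 : u + u = 0 := funext fun k => zt_double (u k)
    have e3 : v + v = 0 := funext fun k => zt_double (v k)
    rw [e1, e2, e3]
  have h2 := congrArg Matrix.det h
  rw [Matrix.det_mul, Matrix.det_one] at h2
  exact zt_unit _ _ h2

theorem trv01_apply (a b : Fin (n + 2)) :
    Matrix.transvection (0 : Fin (n + 2)) 1 (1 : ZMod 2) a b =
      (1 : Matrix (Fin (n + 2)) (Fin (n + 2)) (ZMod 2)) a b +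
        if (0 = a ∧ 1 = b) then 1 else 0 := by
  unfold Matrix.transvection
  rw [Matrix.add_apply, Matrix.single_apply]

theorem tqM_s_eq : tqM (1 : ZMod 2) (0 : Fin n → ZMod 2) 0 = Matrix.transvection 0 1 1 := by
  apply tq_ext
  · rw [tqM_00, trv01_apply, tq1_00, if_neg (fun h => tq10 h.2), add_zero]
  · rw [tqM_01, trv01_apply, tq1_01, if_pos ⟨rfl, rfl⟩, zero_add]
  · intro l
    rw [tqM_0s, trv01_apply, tq1_0s, if_neg (fun h => one_ne_tqS l h.2), add_zero]
    rfl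
  · rw [tqM_10, trv01_apply, tq1_10, if_neg (fun h => tq01 h.1), add_zero]
  · rw [tqM_11, trv01_apply, tq1_11, if_neg (fun h => tq01 h.1), add_zero]
  · intro l
    rw [tqM_1s, trv01_apply, tq1_1s, if_neg (fun h => tq01 h.1), add_zero]
  · intro k
    rw [tqM_s0, trv01_apply, tq1_s0, if_neg (fun h => zero_ne_tqS k h.1), add_zero]
  · intro k
    rw [tqM_s1, trv01_apply, tq1_s1, if_neg (fun h => zero_ne_tqS k h.1), add_zero]
    rfl
  · intro k l
    rw [tqM_ss, trv01_apply, tq1_ss,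
      if_neg (fun h : (0 : Fin (n + 2)) = tqS k ∧ (1 : Fin (n + 2)) = tqS l => zero_ne_tqS k h.1),
      add_zero, Matrix.one_apply]

variable (z : Matrix.SpecialLinearGroup (Fin (n + 2)) (ZMod 2))
  (hz : (z : Matrix (Fin (n + 2)) (Fin (n + 2)) (ZMod 2)) = Matrix.transvection 0 1 1)

include hz

theorem tq_col (x : ↥(tqC z)) (a : Fin (n + 2)) : x.1.1 a 0 = if a = 0 then 1 else 0 :=
  trv_cent_col (ZMod.card 2) 0 1 z hz x a

theorem tq_row (x : ↥(tqC z)) (b : Fin (n + 2)) : x.1.1 1 b = if b = 1 then 1 else 0 :=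
  trv_cent_row 0 1 z hz x b

theorem tq_mem (x : Matrix.SpecialLinearGroup (Fin (n + 2)) (ZMod 2))
    (hcol : ∀ a, x.1 a 0 = if a = 0 then 1 else 0)
    (hrow : ∀ b, x.1 1 b = if b = 1 then 1 else 0) : x ∈ tqC z := by
  rw [Subgroup.mem_centralizer_iff]
  intro h hh
  rw [Set.mem_singleton_iff] at hh
  rw [hh]
  apply Subtype.ext
  rw [Matrix.SpecialLinearGroup.coe_mul, Matrix.SpecialLinearGroup.coe_mul, hz]
  exact (trv_comm_of 0 1 _ hcol hrow).symm

theorem tq_col0 (x : ↥(tqC z)) (k : Fin n) : x.1.1 (tqS k) 0 = 0 :=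
  (tq_col z hz x (tqS k)).trans (if_neg (tqS_ne_zero k))

theorem tq_row0 (x : ↥(tqC z)) (l : Fin n) : x.1.1 1 (tqS l) = 0 :=
  (tq_row z hz x (tqS l)).trans (if_neg (tqS_ne_one l))

theorem tqB_det (x : ↥(tqC z)) : (tqB x.1.1).det = 1 := by
  have h : tqB x.1.1 * tqB (x⁻¹).1.1 = 1 := by
    rw [← tqB_mul _ _ (tq_col0 z hz x) (tq_row0 z hz x⁻¹), trv_mul_inv, tqB_one]
  have h2 := congrArg Matrix.det h
  rw [Matrix.det_mul, Matrix.det_one] at h2
  exact zt_unit _ _ h2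

/-- the projection onto the block -/
noncomputable def tqRho : ↥(tqC z) →* Matrix.SpecialLinearGroup (Fin n) (ZMod 2) where
  toFun x := ⟨tqB x.1.1, tqB_det z hz x⟩
  map_one' := Subtype.ext tqB_one
  map_mul' x y := Subtype.ext (tqB_mul _ _ (tq_col0 z hz x) (tq_row0 z hz y))

theorem mem_tqQ (x : ↥(tqC z)) : x ∈ (tqRho z hz).ker ↔ tqB x.1.1 = 1 := by
  rw [MonoidHom.mem_ker]
  constructor
  · intro h
    exact congrArg Subtype.val h
  · intro h
    exact Subtype.ext h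

/-- the section -/
noncomputable def tqSig : Matrix.SpecialLinearGroup (Fin n) (ZMod 2) →* ↥(tqC z) where
  toFun B := ⟨⟨tqD B.1, tqD_det B⟩, tq_mem z hz _ (tqD_col B.1) (tqD_row B.1)⟩
  map_one' := Subtype.ext (Subtype.ext tqD_one)
  map_mul' B C := Subtype.ext (Subtype.ext (tqD_mul B.1 C.1))

theorem tqRho_sig (B : Matrix.SpecialLinearGroup (Fin n) (ZMod 2)) :
    tqRho z hz (tqSig z hz B) = B := Subtype.ext (tqB_D B.1)

theorem tqSig_inj : Function.Injective (tqSig z hz) := by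
  intro B C h
  have h1 := congrArg (tqRho z hz) h
  rwa [tqRho_sig, tqRho_sig] at h1

theorem tqRho_surj : Function.Surjective (tqRho z hz) :=
  fun B => ⟨tqSig z hz B, tqRho_sig z hz B⟩

theorem tq_inf : (tqRho z hz).ker ⊓ (tqSig z hz).range = ⊥ := by
  rw [eq_bot_iff]
  rintro x ⟨hq, B, rfl⟩
  have hq' : tqRho z hz (tqSig z hz B) = 1 := hq
  rw [tqRho_sig] at hq'
  rw [hq', map_one]
  exact Subgroup.mem_bot.2 rfl

theorem tq_sup : (tqRho z hz).ker ⊔ (tqSig z hz).range = ⊤ := by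
  rw [eq_top_iff]
  intro x _
  have e : x = (x * (tqSig z hz (tqRho z hz x))⁻¹) * tqSig z hz (tqRho z hz x) := by group
  rw [e]
  apply Subgroup.mul_mem_sup
  · rw [MonoidHom.mem_ker, map_mul, map_inv, tqRho_sig, mul_inv_cancel]
  · exact ⟨_, rfl⟩

theorem tq_max (hn : 2 ≤ n) (N : Subgroup ↥(tqC z)) (hN : N.Normal) (hp : IsPGroup 2 ↥N) :
    N ≤ (tqRho z hz).ker := by
  have h1 : N.map (tqRho z hz) = ⊥ :=
    sl2_o2 n hn _ (hN.map _ (tqRho_surj z hz)) (hp.map _)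
  exact (Subgroup.map_eq_bot_iff N).1 h1

/-- the elements of the kernel -/
noncomputable def tqEl (c : ZMod 2) (u v : Fin n → ZMod 2) : ↥(tqC z) :=
  ⟨⟨tqM c u v, tqM_det c u v⟩, tq_mem z hz _ (tqM_col c u v) (tqM_row c u v)⟩

theorem tqEl_val (c : ZMod 2) (u v : Fin n → ZMod 2) : (tqEl z hz c u v).1.1 = tqM c u v := rfl

theorem tqEl_mem (c : ZMod 2) (u v : Fin n → ZMod 2) : tqEl z hz c u v ∈ (tqRho z hz).ker :=
  (mem_tqQ z hz _).2 (tqM_B c u v)

theorem tqEl_mul (c : ZMod 2) (u v : Fin n → ZMod 2) (c' : ZMod 2) (u' v' : Fin n → ZMod 2) :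
    tqEl z hz c u v * tqEl z hz c' u' v' = tqEl z hz (c + c' + u ⬝ᵥ v') (u + u') (v + v') :=
  Subtype.ext (Subtype.ext (tqM_mul c u v c' u' v'))

theorem tqEl_zero : tqEl z hz 0 0 0 = 1 := Subtype.ext (Subtype.ext tqM_zero)

theorem tq_form (x : ↥(tqC z)) (hx : x ∈ (tqRho z hz).ker) :
    x = tqEl z hz (x.1.1 0 1) (fun l => x.1.1 0 (tqS l)) (fun k => x.1.1 (tqS k) 1) := by
  have hB := (mem_tqQ z hz x).1 hx
  apply Subtype.ext
  apply Subtype.ext
  rw [tqEl_val]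
  apply tq_ext
  · rw [tqM_00, tq_col z hz x 0, if_pos rfl]
  · rw [tqM_01]
  · intro l
    rw [tqM_0s]
  · rw [tqM_10, tq_col z hz x 1, if_neg tq10]
  · rw [tqM_11, tq_row z hz x 1, if_pos rfl]
  · intro l
    rw [tqM_1s, tq_row0 z hz x l]
  · intro k
    rw [tqM_s0, tq_col0 z hz x k]
  · intro k
    rw [tqM_s1]
  · intro k l
    rw [tqM_ss]
    have h3 := congrFun (congrFun hB k) l
    rw [tqB_apply, Matrix.one_apply] at h3
    exact h3

theorem tqQ_card : Nat.card ↥(tqRho z hz).ker = 2 ^ (2 * n + 1) := by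
  have e : ↥(tqRho z hz).ker ≃ ZMod 2 × (Fin n → ZMod 2) × (Fin n → ZMod 2) :=
    { toFun := fun x => (x.1.1.1 0 1, fun l => x.1.1.1 0 (tqS l), fun k => x.1.1.1 (tqS k) 1)
      invFun := fun p => ⟨tqEl z hz p.1 p.2.1 p.2.2, tqEl_mem z hz _ _ _⟩
      left_inv := fun x => Subtype.ext (tq_form z hz x.1 x.2).symm
      right_inv := fun p => rfl }
  rw [Nat.card_congr e, Nat.card_prod, Nat.card_prod, Nat.card_fun, Nat.card_zmod, Nat.card_fin]
  ring

/-- the transvection as an element of its centralizer -/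
noncomputable def tqSel : ↥(tqC z) := tqEl z hz 1 0 0

theorem tqSel_val : (tqSel z hz).1 = z := Subtype.ext (tqM_s_eq.trans hz.symm)

theorem tqSel_ne : tqSel z hz ≠ 1 := by
  intro h
  have h1 : tqM (1 : ZMod 2) (0 : Fin n → ZMod 2) 0 0 1 =
      (1 : Matrix (Fin (n + 2)) (Fin (n + 2)) (ZMod 2)) 0 1 :=
    congrArg (fun t : ↥(tqC z) => t.1.1 0 1) h
  rw [tqM_01, tq1_01] at h1
  exact one_ne_zero h1

theorem tqSel_sq : tqSel z hz * tqSel z hz = 1 := by
  unfold tqSel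
  rw [tqEl_mul, dotProduct_zero, add_zero, add_zero, ← tqEl_zero z hz]
  congr 1

theorem tqSel_cen (x : ↥(tqC z)) : x * tqSel z hz = tqSel z hz * x := by
  apply Subtype.ext
  rw [Subgroup.coe_mul, Subgroup.coe_mul, tqSel_val]
  exact ((Subgroup.mem_centralizer_iff.1 x.2) z (Set.mem_singleton _)).symm

theorem tq_comm_aux (c : ZMod 2) (u v : Fin n → ZMod 2) (c' : ZMod 2) (u' v' : Fin n → ZMod 2) :
    tqEl z hz c u v * tqEl z hz c' u' v' = tqEl z hz c' u' v' * tqEl z hz c u v ∨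
      tqEl z hz c u v * tqEl z hz c' u' v' =
        tqSel z hz * (tqEl z hz c' u' v' * tqEl z hz c u v) := by
  unfold tqSel
  rw [tqEl_mul, tqEl_mul, tqEl_mul]
  rcases zt_cases (u ⬝ᵥ v' + u' ⬝ᵥ v) with hd | hd
  · left
    rw [zt_add_eq_zero _ _ hd, add_comm c c', add_comm u u', add_comm v v']
  · right
    rw [zt_add_eq_one _ _ hd]
    congr 1
    · rw [zero_dotProduct]
      ring
    · rw [zero_add, add_comm]
    · rw [zero_add, add_comm]

theorem tq_comm (p q : ↥(tqC z)) (hp : p ∈ (tqRho z hz).ker) (hq : q ∈ (tqRho z hz).ker) :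
    p * q * p⁻¹ * q⁻¹ = 1 ∨ p * q * p⁻¹ * q⁻¹ = tqSel z hz := by
  rw [tq_form z hz p hp, tq_form z hz q hq]
  rcases tq_comm_aux z hz (p.1.1 0 1) (fun l => p.1.1 0 (tqS l)) (fun k => p.1.1 (tqS k) 1)
      (q.1.1 0 1) (fun l => q.1.1 0 (tqS l)) (fun k => q.1.1 (tqS k) 1) with h | h
  · left
    rw [h]
    group
  · right
    rw [h]
    group

theorem tq_nonab (k0 : Fin n) :
    ∃ a ∈ (tqRho z hz).ker, ∃ b ∈ (tqRho z hz).ker, a * b ≠ b * a := by
  refine ⟨tqEl z hz 0 (Pi.single k0 1) 0, tqEl_mem z hz _ _ _,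
    tqEl z hz 0 0 (Pi.single k0 1), tqEl_mem z hz _ _ _, ?_⟩
  rw [tqEl_mul, tqEl_mul]
  intro h
  have h1 : tqM ((0 : ZMod 2) + 0 + (Pi.single k0 1 : Fin n → ZMod 2) ⬝ᵥ Pi.single k0 1)
      ((Pi.single k0 1 : Fin n → ZMod 2) + 0) (0 + Pi.single k0 1) 0 1 =
    tqM ((0 : ZMod 2) + 0 + (0 : Fin n → ZMod 2) ⬝ᵥ 0) (0 + (Pi.single k0 1 : Fin n → ZMod 2))
      (Pi.single k0 1 + 0) 0 1 :=
    congrArg (fun t : ↥(tqC z) => t.1.1 0 1) h
  rw [tqM_01, tqM_01] at h1
  simp at h1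

theorem tq_self (c : ↥(tqC z)) (hc : ∀ q ∈ (tqRho z hz).ker, c * q = q * c) :
    c = 1 ∨ c = tqSel z hz := by
  have hVQ : ∀ y : ↥(tqC z), y ∈ trvV z 0 → y ∈ (tqRho z hz).ker := by
    intro y hy
    rw [mem_tqQ]
    ext k l
    rw [tqB_apply, (mem_trvV z 0 y).1 hy (tqS k) (tqS_ne_zero k) (tqS l), tq1_ss]
  have hV : c ∈ trvV z 0 := by
    apply trvV_self (ZMod.card 2) 0 1 tq01 z hz
    rw [Subgroup.mem_centralizer_iff]
    intro y hy
    exact (hc y (hVQ y hy)).symm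
  have hcQ := hVQ c hV
  rw [mem_trvV] at hV
  have hu : (fun l => c.1.1 0 (tqS l)) = (0 : Fin n → ZMod 2) := by
    funext k
    have h1 := hc _ (tqEl_mem z hz 0 0 (Pi.single k 1))
    have h2 : (c.1.1 * tqM 0 0 (Pi.single k 1)) 0 1 = (tqM 0 0 (Pi.single k 1) * c.1.1) 0 1 :=
      congrArg (fun t : ↥(tqC z) => t.1.1 0 1) h1
    rw [Matrix.mul_apply, Matrix.mul_apply, tq_sum, tq_sum] at h2
    simp [tqM_00, tqM_01, tqM_0s, tqM_11, tqM_s1, Pi.single_apply] at h2
    exact h2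
  have hv : (fun k => c.1.1 (tqS k) 1) = (0 : Fin n → ZMod 2) := by
    funext k
    rw [hV (tqS k) (tqS_ne_zero k) 1, tq1_s1]
    rfl
  have e := tq_form z hz c hcQ
  rw [hu, hv] at e
  rcases zt_cases (c.1.1 0 1) with h | h
  · left
    rw [h] at e
    exact e.trans (tqEl_zero z hz)
  · right
    rw [h] at e
    exact e

/-- the elementary abelian subgroup -/
noncomputable def tqE : Multiplicative (ZMod 2 × (Fin n → ZMod 2)) →* ↥(tqC z) where
  toFun p := tqEl z hz (Multiplicative.toAdd p).1 (Multiplicative.toAdd p).2 0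
  map_one' := tqEl_zero z hz
  map_mul' p q := by
    rw [tqEl_mul, dotProduct_zero, add_zero, add_zero]
    rfl

theorem tqE_inj : Function.Injective (tqE z hz) := by
  intro p q h
  have h1 : tqM (Multiplicative.toAdd p).1 (Multiplicative.toAdd p).2 0 =
      tqM (Multiplicative.toAdd q).1 (Multiplicative.toAdd q).2 0 :=
    congrArg (fun t : ↥(tqC z) => t.1.1) h
  have a1 : (Multiplicative.toAdd p).1 = (Multiplicative.toAdd q).1 :=
    congrFun (congrFun h1 0) 1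
  have a2 : (Multiplicative.toAdd p).2 = (Multiplicative.toAdd q).2 :=
    funext fun l => congrFun (congrFun h1 0) (tqS l)
  exact Multiplicative.toAdd.injective (Prod.ext a1 a2)

theorem tqE_le : (tqE z hz).range ≤ (tqRho z hz).ker := by
  rintro _ ⟨p, rfl⟩
  exact tqEl_mem z hz _ _ _

theorem tqE_ea : IsElementaryAbelian 2 (tqE z hz).range := by
  have hp2 : ∀ p : Multiplicative (ZMod 2 × (Fin n → ZMod 2)), p * p = 1 := by
    intro p
    apply Multiplicative.toAdd.injective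
    show Multiplicative.toAdd p + Multiplicative.toAdd p = 0
    exact Prod.ext (zt_double _) (funext fun l => zt_double _)
  refine ⟨⟨⟨?_⟩⟩, ?_⟩
  · rintro ⟨_, p, rfl⟩ ⟨_, q, rfl⟩
    apply Subtype.ext
    show tqE z hz p * tqE z hz q = tqE z hz q * tqE z hz p
    rw [← map_mul, ← map_mul, mul_comm]
  · rintro _ ⟨p, rfl⟩
    rw [pow_two, ← map_mul, hp2, map_one]

theorem tqE_card : Nat.card ↥(tqE z hz).range = 2 ^ (n + 1) := by
  rw [← Nat.card_congr (MonoidHom.ofInjective (tqE_inj z hz)).toEquiv,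
    Nat.card_congr Multiplicative.toAdd, Nat.card_prod, Nat.card_fun, Nat.card_zmod, Nat.card_fin]
  ring

theorem tq_data (hn : 2 ≤ n) : CDataN ↥(tqC z) (tqSel z hz) (tqRho z hz).ker (tqE z hz).range
    (tqSig z hz).range (2 * n + 1) (n + 1) (Matrix.SpecialLinearGroup (Fin n) (ZMod 2)) where
  normal := MonoidHom.normal_ker _
  card := tqQ_card z hz
  max := tq_max z hz hn
  s_mem := tqEl_mem z hz 1 0 0
  s_ne := tqSel_ne z hz
  s_sq := tqSel_sq z hz
  s_cen := tqSel_cen z hz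
  comm := fun p hp q hq => tq_comm z hz p q hp hq
  self := tq_self z hz
  nonab := tq_nonab z hz ⟨0, by omega⟩
  E_le := tqE_le z hz
  E_ea := tqE_ea z hz
  E_card := tqE_card z hz
  inf := tq_inf z hz
  sup := tq_sup z hz
  iso := ⟨(MonoidHom.ofInjective (tqSig_inj z hz)).symm⟩

end TrvQ2

end Cfsg.Agent.Helper3
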