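import Mathlib
import Cfsg.Agent.Helper3.Pat.TrvQ2

set_option autoImplicit false

namespace Cfsg.Agent.Helper3

open Cfsg

section TrvAff

variable {n : ℕ}

/-- the embedding of the indices other than `1` -/
def tqI : Fin (n + 1) → Fin (n + 2) := Fin.cases 0 tqS

theorem tqI_ne_one (i : Fin (n + 1)) : tqI i ≠ 1 := by
  refine Fin.cases ?_ (fun k => ?_) i
  · exact tq01
  · exact tqS_ne_one k

theorem tqI_inj {i j : Fin (n + 1)} : tqI i = tqI j ↔ i = j := by
  constructor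
  · refine Fin.cases ?_ (fun k => ?_) i <;> refine Fin.cases ?_ (fun l => ?_) j
    · intro _
      rfl
    · intro h
      exact absurd h (zero_ne_tqS l)
    · intro h
      exact absurd h (tqS_ne_zero k)
    · intro h
      rw [tqS_inj.1 h]
  · intro h
    rw [h]

theorem tq_sum' (f : Fin (n + 2) → ZMod 2) :
    ∑ m, f m = f 1 + ∑ i : Fin (n + 1), f (tqI i) := by
  rw [tq_sum, Fin.sum_univ_succ]
  show f 0 + f 1 + ∑ k : Fin n, f (tqS k) = f 1 + (f 0 + ∑ k : Fin n, f (tqS k))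
  ring

/-- the linear part -/
def tqL (A : Matrix (Fin (n + 2)) (Fin (n + 2)) (ZMod 2)) :
    Matrix (Fin (n + 1)) (Fin (n + 1)) (ZMod 2) := fun i j => A (tqI i) (tqI j)

/-- the translation part -/
def tqT (A : Matrix (Fin (n + 2)) (Fin (n + 2)) (ZMod 2)) : Fin (n + 1) → ZMod 2 :=
  fun i => A (tqI i) 1

theorem tq_ext' (M N : Matrix (Fin (n + 2)) (Fin (n + 2)) (ZMod 2))
    (h1 : ∀ b, M 1 b = N 1 b) (hT : tqT M = tqT N) (hL : tqL M = tqL N) : M = N := by
  apply tq_ext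
  · exact congrFun (congrFun hL 0) 0
  · exact congrFun hT 0
  · intro l
    exact congrFun (congrFun hL 0) l.succ
  · exact h1 0
  · exact h1 1
  · intro l
    exact h1 _
  · intro k
    exact congrFun (congrFun hL k.succ) 0
  · intro k
    exact congrFun hT k.succ
  · intro k l
    exact congrFun (congrFun hL k.succ) l.succ

theorem tqL_mul (A B : Matrix (Fin (n + 2)) (Fin (n + 2)) (ZMod 2))
    (hrow : ∀ b, B 1 b = if b = 1 then 1 else 0) : tqL (A * B) = tqL A * tqL B := by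
  ext i j
  show (A * B) (tqI i) (tqI j) = _
  rw [Matrix.mul_apply, tq_sum', hrow, if_neg (tqI_ne_one j), mul_zero, zero_add,
    Matrix.mul_apply]
  rfl

theorem tqT_mul (A B : Matrix (Fin (n + 2)) (Fin (n + 2)) (ZMod 2))
    (hrow : ∀ b, B 1 b = if b = 1 then 1 else 0) :
    tqT (A * B) = tqT A + (tqL A).mulVec (tqT B) := by
  funext i
  show (A * B) (tqI i) 1 = A (tqI i) 1 + _
  rw [Matrix.mul_apply, tq_sum', hrow, if_pos rfl, mul_one]
  rfl

theorem tqL_one : tqL (1 : Matrix (Fin (n + 2)) (Fin (n + 2)) (ZMod 2)) = 1 := by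
  ext i j
  show (1 : Matrix (Fin (n + 2)) (Fin (n + 2)) (ZMod 2)) (tqI i) (tqI j) = _
  rw [Matrix.one_apply, Matrix.one_apply]
  by_cases h : i = j
  · rw [if_pos (tqI_inj.2 h), if_pos h]
  · rw [if_neg (fun h' => h (tqI_inj.1 h')), if_neg h]

theorem tqT_one : tqT (1 : Matrix (Fin (n + 2)) (Fin (n + 2)) (ZMod 2)) = 0 := by
  funext i
  exact Matrix.one_apply_ne (tqI_ne_one i)

theorem tq_one_row (b : Fin (n + 2)) :
    (1 : Matrix (Fin (n + 2)) (Fin (n + 2)) (ZMod 2)) 1 b = if b = 1 then 1 else 0 := by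
  rw [Matrix.one_apply]
  by_cases h : b = 1
  · rw [if_pos h, if_pos h.symm]
  · rw [if_neg h, if_neg (fun h' => h h'.symm)]

theorem tq_row_mul (A B : Matrix (Fin (n + 2)) (Fin (n + 2)) (ZMod 2))
    (hA : ∀ b, A 1 b = if b = 1 then 1 else 0) (b : Fin (n + 2)) : (A * B) 1 b = B 1 b := by
  rw [Matrix.mul_apply, tq_sum', hA, if_pos rfl, one_mul]
  have h0 : ∀ i ∈ Finset.univ, A 1 (tqI i) * B (tqI i) b = 0 := fun i _ => by
    rw [hA, if_neg (tqI_ne_one i), zero_mul]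
  rw [Finset.sum_eq_zero h0, add_zero]

theorem mat_ext_mulVec {N : ℕ} (A B : Matrix (Fin N) (Fin N) (ZMod 2))
    (h : ∀ a, A.mulVec a = B.mulVec a) : A = B := by
  ext i j
  have h1 := congrFun (h (Pi.single j 1)) i
  rw [Matrix.mulVec_single_one, Matrix.mulVec_single_one] at h1
  exact h1

/-- the matrix with given linear and translation parts -/
def tqX (L : Matrix (Fin (n + 1)) (Fin (n + 1)) (ZMod 2)) (t : Fin (n + 1) → ZMod 2) :
    Matrix (Fin (n + 2)) (Fin (n + 2)) (ZMod 2) :=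
  fun a b => Fin.cases (Fin.cases (L 0 0) (fun b' => Fin.cases (t 0) (fun l => L 0 l.succ) b') b)
    (fun a' => Fin.cases (Fin.cases 0 (fun b' => Fin.cases 1 (fun _ => 0) b') b)
      (fun k => Fin.cases (L k.succ 0)
        (fun b' => Fin.cases (t k.succ) (fun l => L k.succ l.succ) b') b) a') a

variable (L : Matrix (Fin (n + 1)) (Fin (n + 1)) (ZMod 2)) (t : Fin (n + 1) → ZMod 2)

theorem tqX_L : tqL (tqX L t) = L := by
  ext i j
  refine Fin.cases ?_ (fun k => ?_) i <;> refine Fin.cases ?_ (fun l => ?_) j <;> rfl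

theorem tqX_T : tqT (tqX L t) = t := by
  funext i
  refine Fin.cases ?_ (fun k => ?_) i <;> rfl

theorem tqX_row (b : Fin (n + 2)) : tqX L t 1 b = if b = 1 then 1 else 0 := by
  revert b
  refine tq_cases _ ?_ ?_ ?_
  · rw [if_neg tq01]
    rfl
  · rw [if_pos rfl]
    rfl
  · intro l
    rw [if_neg (tqS_ne_one l)]
    rfl

theorem tqX_col (hL : ∀ i, L i 0 = if i = 0 then 1 else 0) (a : Fin (n + 2)) :
    tqX L t a 0 = if a = 0 then 1 else 0 := by
  revert a
  refine tq_cases _ ?_ ?_ ?_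
  · rw [if_pos rfl]
    exact (hL 0).trans (if_pos rfl)
  · rw [if_neg tq10]
    rfl
  · intro k
    rw [if_neg (tqS_ne_zero k)]
    exact (hL k.succ).trans (if_neg (Fin.succ_ne_zero k))

theorem tqX_det (L' : Matrix (Fin (n + 1)) (Fin (n + 1)) (ZMod 2)) (hLL' : L * L' = 1) :
    (tqX L t).det = 1 := by
  have h : tqX L t * tqX L' (L'.mulVec t) = 1 := by
    apply tq_ext'
    · intro b
      rw [tq_row_mul _ _ (tqX_row L t), tqX_row, tq_one_row]
    · rw [tqT_mul _ _ (tqX_row _ _), tqX_T, tqX_L, tqX_T, Matrix.mulVec_mulVec, hLL',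
        Matrix.one_mulVec, tqT_one]
      funext i
      exact zt_double (t i)
    · rw [tqL_mul _ _ (tqX_row _ _), tqX_L, tqX_L, hLL', tqL_one]
  have h2 := congrArg Matrix.det h
  rw [Matrix.det_mul, Matrix.det_one] at h2
  exact zt_unit _ _ h2

theorem tqL_s : tqL (tqM (1 : ZMod 2) (0 : Fin n → ZMod 2) 0) = 1 := by
  ext i j
  refine Fin.cases ?_ (fun k => ?_) i <;> refine Fin.cases ?_ (fun l => ?_) j
  · show tqM (1 : ZMod 2) (0 : Fin n → ZMod 2) 0 0 0 = _
    rw [tqM_00, Matrix.one_apply_eq]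
  · show tqM (1 : ZMod 2) (0 : Fin n → ZMod 2) 0 0 (tqS l) = _
    rw [tqM_0s, Matrix.one_apply_ne (Fin.succ_ne_zero l).symm]
    rfl
  · show tqM (1 : ZMod 2) (0 : Fin n → ZMod 2) 0 (tqS k) 0 = _
    rw [tqM_s0, Matrix.one_apply_ne (Fin.succ_ne_zero k)]
  · show tqM (1 : ZMod 2) (0 : Fin n → ZMod 2) 0 (tqS k) (tqS l) = _
    rw [tqM_ss, Matrix.one_apply]
    by_cases h : k = l
    · rw [if_pos h, if_pos (congrArg Fin.succ h)]
    · rw [if_neg h, if_neg (fun h' => h (Fin.succ_inj.1 h'))]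

theorem tqT_M (c : ZMod 2) (u v : Fin n → ZMod 2) :
    tqT (tqM c u v) = (Fin.cases c v : Fin (n + 1) → ZMod 2) := by
  funext i
  refine Fin.cases ?_ (fun k => ?_) i <;> rfl

theorem tqL_M (c : ZMod 2) (v : Fin n → ZMod 2) : tqL (tqM c (0 : Fin n → ZMod 2) v) = 1 := by
  have h1 : tqL (tqM c (0 : Fin n → ZMod 2) v) = tqL (tqM (1 : ZMod 2) (0 : Fin n → ZMod 2) 0) := by
    ext i j
    refine Fin.cases ?_ (fun k => ?_) i <;> refine Fin.cases ?_ (fun l => ?_) j <;> rfl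
  rw [h1, tqL_s]

end TrvAff

end Cfsg.Agent.Helper3
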