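import Mathlib
import Cfsg.Agent.Helper3.Pat.TrvAff
import Cfsg.Agent.Helper3.Pat.EaCoord

set_option autoImplicit false

namespace Cfsg.Agent.Helper3

open Cfsg

section AglIota

variable {n : ℕ}

theorem tq_max' (z : Matrix.SpecialLinearGroup (Fin (n + 2)) (ZMod 2))
    (hz : (z : Matrix (Fin (n + 2)) (Fin (n + 2)) (ZMod 2)) = Matrix.transvection 0 1 1)
    (hn : 1 ≤ n) (N : Subgroup ↥(tqC z)) (hN : N.Normal) (hp : IsPGroup 2 ↥N) :
    N ≤ (tqRho z hz).ker := by
  have h1 : N.map (tqRho z hz) = ⊥ := by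
    rcases Nat.lt_or_ge n 2 with h | h
    · have hn1 : n = 1 := by omega
      subst hn1
      rw [eq_bot_iff]
      intro B _
      rw [Subgroup.mem_bot]
      apply Subtype.ext
      ext i j
      have hi : i = 0 := Subsingleton.elim _ _
      have hj : j = 0 := Subsingleton.elim _ _
      have hd := B.2
      rw [Matrix.det_fin_one] at hd
      show B.1 i j = (1 : Matrix (Fin 1) (Fin 1) (ZMod 2)) i j
      rw [hi, hj, hd, Matrix.one_apply_eq]
    · exact sl2_o2 n h _ (hN.map _ (tqRho_surj z hz)) (hp.map _)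
  exact (Subgroup.map_eq_bot_iff N).1 h1

theorem zt_gl_det {m : ℕ} (g : Matrix.GeneralLinearGroup (Fin m) (ZMod 2)) :
    (g.1 : Matrix (Fin m) (Fin m) (ZMod 2)).det = 1 := by
  have h : (g.1 : Matrix (Fin m) (Fin m) (ZMod 2)) * (g⁻¹).1 = 1 := Units.mul_inv g
  have h2 := congrArg Matrix.det h
  rw [Matrix.det_mul, Matrix.det_one] at h2
  exact zt_unit _ _ h2

/-- over the field with two elements the special and general linear groups agree -/
noncomputable def slgl2 (m : ℕ) :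
    Matrix.SpecialLinearGroup (Fin m) (ZMod 2) ≃* Matrix.GeneralLinearGroup (Fin m) (ZMod 2) :=
  MulEquiv.ofBijective Matrix.SpecialLinearGroup.toGL (by
    constructor
    · exact Matrix.SpecialLinearGroup.toGL_injective
    · intro g
      refine ⟨⟨g.1, zt_gl_det g⟩, ?_⟩
      apply Units.ext
      rfl)

theorem tq_data' (z : Matrix.SpecialLinearGroup (Fin (n + 2)) (ZMod 2))
    (hz : (z : Matrix (Fin (n + 2)) (Fin (n + 2)) (ZMod 2)) = Matrix.transvection 0 1 1)
    (hn : 1 ≤ n) : CDataN ↥(tqC z) (tqSel z hz) (tqRho z hz).ker (tqE z hz).range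
    (tqSig z hz).range (2 * n + 1) (n + 1) (Matrix.GeneralLinearGroup (Fin n) (ZMod 2)) where
  normal := MonoidHom.normal_ker _
  card := tqQ_card z hz
  max := tq_max' z hz hn
  s_mem := tqEl_mem z hz 1 0 0
  s_ne := tqSel_ne z hz
  s_sq := tqSel_sq z hz
  s_cen := tqSel_cen z hz
  comm := fun p hp q hq => tq_comm z hz p q hp hq
  self := tq_self z hz
  nonab := tq_nonab z hz ⟨0, by omega⟩
  E_le := tqE_le z hz
  E_ea := tqE_ea z hz
  E_card := tqE_card z hz
  inf := tq_inf z hz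
  sup := tq_sup z hz
  iso := ⟨(MonoidHom.ofInjective (tqSig_inj z hz)).symm.trans (slgl2 n)⟩

section Aff

variable {G : Type*} [Group G] (U M : Subgroup G)
  (τ : (Fin (n + 1) → ZMod 2) → G) (τi : G → (Fin (n + 1) → ZMod 2))
  (hτU : ∀ a, τ a ∈ U) (hτm : ∀ a b, τ (a + b) = τ a * τ b) (hτi : ∀ a, τi (τ a) = a)
  (hτu : ∀ u ∈ U, τ (τi u) = u)

include hτm in
theorem agl_tau_zero : τ 0 = 1 := by
  have h := hτm 0 0
  rw [add_zero] at h
  have h' : τ 0 * τ 0 = τ 0 * 1 := by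
    rw [mul_one]
    exact h.symm
  exact mul_left_cancel h'

include hτi in
theorem agl_tau_inj {a b : Fin (n + 1) → ZMod 2} (h : τ a = τ b) : a = b :=
  (hτi a).symm.trans ((congrArg τi h).trans (hτi b))

include hτm hτi hτu in
theorem agl_taui_mul (u v : G) (hu : u ∈ U) (hv : v ∈ U) : τi (u * v) = τi u + τi v := by
  have h : u * v = τ (τi u + τi v) := by rw [hτm, hτu u hu, hτu v hv]
  exact (congrArg τi h).trans (hτi _)

include hτm in
theorem agl_tau_comm (a b : Fin (n + 1) → ZMod 2) : τ a * τ b = τ b * τ a := by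
  rw [← hτm, ← hτm, add_comm]

include hτU hτm hτi hτu in
theorem agl_mu (hfull : ∀ φ : ↥U ≃* ↥U, ∃ m ∈ M, ∀ u : ↥U, ((φ u : ↥U) : G) = m * u * m⁻¹)
    (L L' : Matrix (Fin (n + 1)) (Fin (n + 1)) (ZMod 2)) (h1 : L * L' = 1) (h2 : L' * L = 1) :
    ∃ m ∈ M, ∀ a, τ (L.mulVec a) = m * τ a * m⁻¹ := by
  let φ : ↥U ≃* ↥U :=
    { toFun := fun u => ⟨τ (L.mulVec (τi u.1)), hτU _⟩
      invFun := fun u => ⟨τ (L'.mulVec (τi u.1)), hτU _⟩
      left_inv := by
        intro u
        apply Subtype.ext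
        show τ (L'.mulVec (τi (τ (L.mulVec (τi u.1))))) = u.1
        rw [hτi, Matrix.mulVec_mulVec, h2, Matrix.one_mulVec, hτu _ u.2]
      right_inv := by
        intro u
        apply Subtype.ext
        show τ (L.mulVec (τi (τ (L'.mulVec (τi u.1))))) = u.1
        rw [hτi, Matrix.mulVec_mulVec, h1, Matrix.one_mulVec, hτu _ u.2]
      map_mul' := by
        intro u v
        apply Subtype.ext
        show τ (L.mulVec (τi (u.1 * v.1))) = τ (L.mulVec (τi u.1)) * τ (L.mulVec (τi v.1))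
        rw [agl_taui_mul U τ τi hτm hτi hτu _ _ u.2 v.2, Matrix.mulVec_add, hτm] }
  obtain ⟨m, hm, h⟩ := hfull φ
  refine ⟨m, hm, fun a => ?_⟩
  have h3 := h ⟨τ a, hτU a⟩
  have h4 : ((φ ⟨τ a, hτU a⟩ : ↥U) : G) = τ (L.mulVec a) := by
    show τ (L.mulVec (τi (τ a))) = _
    rw [hτi]
  rw [← h4]
  exact h3

include hτU hτm hτi hτu in
theorem agl_lin [U.Normal] (m : G) :
    ∃ L : Matrix (Fin (n + 1)) (Fin (n + 1)) (ZMod 2), ∀ a, τ (L.mulVec a) = m * τ a * m⁻¹ := by
  have hmem : ∀ a, m * τ a * m⁻¹ ∈ U := fun a =>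
    Subgroup.Normal.conj_mem inferInstance _ (hτU a) m
  have hf : ∀ a b, τi (m * τ (a + b) * m⁻¹) = τi (m * τ a * m⁻¹) + τi (m * τ b * m⁻¹) := by
    intro a b
    rw [← agl_taui_mul U τ τi hτm hτi hτu _ _ (hmem a) (hmem b), hτm]
    congr 1
    group
  refine ⟨LinearMap.toMatrix'
    ((AddMonoidHom.mk' (fun a => τi (m * τ a * m⁻¹)) hf).toZModLinearMap 2), fun a => ?_⟩
  rw [← Matrix.toLin'_apply, Matrix.toLin'_toMatrix']
  exact hτu _ (hmem a)

include hτU hτm hτi hτu in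
theorem agl_iota [U.Normal] (hUM : U ⊓ M = ⊥) (hUM' : U ⊔ M = ⊤)
    (hfaith : ∀ m ∈ M, (∀ u ∈ U, m * u * m⁻¹ = u) → m = 1)
    (hfull : ∀ φ : ↥U ≃* ↥U, ∃ m ∈ M, ∀ u : ↥U, ((φ u : ↥U) : G) = m * u * m⁻¹)
    (z0 : Matrix.SpecialLinearGroup (Fin (n + 2)) (ZMod 2))
    (hz0 : (z0 : Matrix (Fin (n + 2)) (Fin (n + 2)) (ZMod 2)) = Matrix.transvection 0 1 1) :
    ∃ ι : ↥(tqC z0) →* G, Function.Injective ι ∧
      ι (tqSel z0 hz0) = τ (Pi.single 0 1) ∧
      ι.range = Subgroup.centralizer ({τ (Pi.single 0 1)} : Set G) ∧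
      ∀ x : ↥(tqC z0), tqL x.1.1 = 1 → ι x = τ (tqT x.1.1) := by
  have hτ0 : τ 0 = 1 := agl_tau_zero τ hτm
  have hLL : ∀ x : ↥(tqC z0), tqL x.1.1 * tqL (x⁻¹).1.1 = 1 := by
    intro x
    rw [← tqL_mul _ _ (tq_row z0 hz0 x⁻¹), trv_mul_inv, tqL_one]
  have hLL' : ∀ x : ↥(tqC z0), tqL (x⁻¹).1.1 * tqL x.1.1 = 1 := by
    intro x
    have h := hLL x⁻¹
    rwa [inv_inv] at h
  have hex : ∀ x : ↥(tqC z0), ∃ m ∈ M, ∀ a, τ ((tqL x.1.1).mulVec a) = m * τ a * m⁻¹ :=
    fun x => agl_mu U M τ τi hτU hτm hτi hτu hfull _ _ (hLL x) (hLL' x)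
  choose μ hμM hμ using hex
  have huniq : ∀ m ∈ M, ∀ m' ∈ M, (∀ a, m * τ a * m⁻¹ = m' * τ a * m'⁻¹) → m = m' := by
    intro m hm m' hm' h
    have h1 : m'⁻¹ * m = 1 := by
      apply hfaith _ (M.mul_mem (M.inv_mem hm') hm)
      intro u hu
      have h2 := h (τi u)
      rw [hτu u hu] at h2
      have e : m'⁻¹ * m * u * (m'⁻¹ * m)⁻¹ = m'⁻¹ * (m * u * m⁻¹) * m' := by group
      rw [e, h2]
      group
    exact (inv_mul_eq_one.1 h1).symm
  have hμ_mul : ∀ x y : ↥(tqC z0), μ (x * y) = μ x * μ y := by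
    intro x y
    apply huniq _ (hμM _) _ (M.mul_mem (hμM x) (hμM y))
    intro a
    rw [← hμ (x * y) a]
    have e : tqL (x * y).1.1 = tqL x.1.1 * tqL y.1.1 := tqL_mul _ _ (tq_row z0 hz0 y)
    rw [e, ← Matrix.mulVec_mulVec, hμ x, hμ y]
    group
  let ι : ↥(tqC z0) →* G := MonoidHom.mk' (fun x => τ (tqT x.1.1) * μ x) (by
    intro x y
    show τ (tqT (x * y).1.1) * μ (x * y) = τ (tqT x.1.1) * μ x * (τ (tqT y.1.1) * μ y)
    have e : tqT (x * y).1.1 = tqT x.1.1 + (tqL x.1.1).mulVec (tqT y.1.1) :=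
      tqT_mul _ _ (tq_row z0 hz0 y)
    rw [e, hτm, hμ x, hμ_mul]
    group)
  have hι : ∀ x, ι x = τ (tqT x.1.1) * μ x := fun x => rfl
  have hμ1 : ∀ x : ↥(tqC z0), tqL x.1.1 = 1 → μ x = 1 := by
    intro x hx
    apply huniq _ (hμM x) _ M.one_mem
    intro a
    rw [← hμ x a, hx, Matrix.one_mulVec]
    group
  have hιT : ∀ x : ↥(tqC z0), tqL x.1.1 = 1 → ι x = τ (tqT x.1.1) := by
    intro x hx
    rw [hι, hμ1 x hx, mul_one]
  have he0 : (Fin.cases (1 : ZMod 2) (0 : Fin n → ZMod 2) : Fin (n + 1) → ZMod 2) =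
      Pi.single 0 1 := by
    funext i
    refine Fin.cases ?_ (fun k => ?_) i
    · rw [Pi.single_eq_same]
      rfl
    · rw [Pi.single_eq_of_ne (Fin.succ_ne_zero k)]
      rfl
  have hιs : ι (tqSel z0 hz0) = τ (Pi.single 0 1) := by
    have hs : tqL (tqSel z0 hz0).1.1 = 1 := tqL_s
    rw [hιT _ hs]
    have e : tqT (tqSel z0 hz0).1.1 = Pi.single 0 1 := (tqT_M 1 0 0).trans he0
    rw [e]
  have hinj : Function.Injective ι := by
    rw [injective_iff_map_eq_one]
    intro x hx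
    rw [hι] at hx
    have hmem : τ (tqT x.1.1) ∈ U ⊓ M := by
      refine ⟨hτU _, ?_⟩
      have e : τ (tqT x.1.1) = (μ x)⁻¹ := eq_inv_of_mul_eq_one_left hx
      rw [e]
      exact M.inv_mem (hμM x)
    rw [hUM, Subgroup.mem_bot] at hmem
    rw [hmem, one_mul] at hx
    have hT : tqT x.1.1 = 0 := agl_tau_inj τ τi hτi (hmem.trans hτ0.symm)
    have hL : tqL x.1.1 = 1 := by
      apply mat_ext_mulVec
      intro a
      apply agl_tau_inj τ τi hτi
      rw [hμ x a, hx, Matrix.one_mulVec]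
      group
    apply Subtype.ext
    apply Subtype.ext
    show x.1.1 = (1 : Matrix (Fin (n + 2)) (Fin (n + 2)) (ZMod 2))
    apply tq_ext'
    · intro b
      rw [tq_row z0 hz0 x b]
      exact (tq_one_row b).symm
    · rw [hT]
      exact tqT_one.symm
    · rw [hL]
      exact tqL_one.symm
  have hLe0 : ∀ x : ↥(tqC z0), (tqL x.1.1).mulVec (Pi.single 0 1) = Pi.single 0 1 := by
    intro x
    funext i
    rw [Matrix.mulVec_single_one]
    show x.1.1 (tqI i) 0 = _
    rw [tq_col z0 hz0 x]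
    refine Fin.cases ?_ (fun k => ?_) i
    · rw [Pi.single_eq_same]
      exact if_pos rfl
    · rw [Pi.single_eq_of_ne (Fin.succ_ne_zero k)]
      exact if_neg (tqS_ne_zero k)
  have hrange : ι.range = Subgroup.centralizer ({τ (Pi.single 0 1)} : Set G) := by
    apply le_antisymm
    · rintro _ ⟨x, rfl⟩
      rw [Subgroup.mem_centralizer_iff]
      intro h hh
      rw [Set.mem_singleton_iff] at hh
      rw [hh, hι]
      have e1 : μ x * τ (Pi.single 0 1) = τ (Pi.single 0 1) * μ x := by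
        have h1 := hμ x (Pi.single 0 1)
        rw [hLe0 x, eq_mul_inv_iff_mul_eq] at h1
        exact h1.symm
      have e2 : τ (Pi.single 0 1) * τ (tqT x.1.1) = τ (tqT x.1.1) * τ (Pi.single 0 1) :=
        agl_tau_comm τ hτm _ _
      calc τ (Pi.single 0 1) * (τ (tqT x.1.1) * μ x)
          = (τ (Pi.single 0 1) * τ (tqT x.1.1)) * μ x := (mul_assoc _ _ _).symm
        _ = τ (tqT x.1.1) * τ (Pi.single 0 1) * μ x := by rw [e2]
        _ = τ (tqT x.1.1) * (τ (Pi.single 0 1) * μ x) := mul_assoc _ _ _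
        _ = τ (tqT x.1.1) * (μ x * τ (Pi.single 0 1)) := by rw [e1]
        _ = τ (tqT x.1.1) * μ x * τ (Pi.single 0 1) := (mul_assoc _ _ _).symm
    · intro g hg
      have hgm : g ∈ U ⊔ M := by
        rw [hUM']
        exact Subgroup.mem_top g
      rw [← SetLike.mem_coe, Subgroup.normal_mul] at hgm
      obtain ⟨u, hu, m, hm, rfl⟩ := Set.mem_mul.1 hgm
      rw [Subgroup.mem_centralizer_iff] at hg
      have hg1 := hg _ (Set.mem_singleton _)
      have hm0 : m * τ (Pi.single 0 1) * m⁻¹ = τ (Pi.single 0 1) := by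
        have e2 : τ (Pi.single 0 1) * u = u * τ (Pi.single 0 1) := by
          rw [← hτu u hu]
          exact agl_tau_comm τ hτm _ _
        have e3 : u * (τ (Pi.single 0 1) * m) = u * (m * τ (Pi.single 0 1)) :=
          calc u * (τ (Pi.single 0 1) * m) = (u * τ (Pi.single 0 1)) * m := (mul_assoc _ _ _).symm
            _ = (τ (Pi.single 0 1) * u) * m := by rw [e2]
            _ = τ (Pi.single 0 1) * (u * m) := mul_assoc _ _ _
            _ = u * m * τ (Pi.single 0 1) := hg1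
            _ = u * (m * τ (Pi.single 0 1)) := mul_assoc _ _ _
        rw [mul_inv_eq_iff_eq_mul]
        exact (mul_left_cancel e3).symm
      obtain ⟨L, hL⟩ := agl_lin U τ τi hτU hτm hτi hτu m
      obtain ⟨L', hL'⟩ := agl_lin U τ τi hτU hτm hτi hτu m⁻¹
      have hLL1 : L * L' = 1 := by
        apply mat_ext_mulVec
        intro a
        apply agl_tau_inj τ τi hτi
        rw [← Matrix.mulVec_mulVec, hL, hL', Matrix.one_mulVec]
        group
      have hL0 : ∀ i, L i 0 = if i = 0 then 1 else 0 := by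
        intro i
        have h1 : L.mulVec (Pi.single 0 1) = Pi.single 0 1 := by
          apply agl_tau_inj τ τi hτi
          rw [hL, hm0]
        have h2 := congrFun h1 i
        rw [Matrix.mulVec_single_one] at h2
        exact h2.trans (Pi.single_apply _ _ _)
      have hdet : (tqX L (τi u)).det = 1 := tqX_det L (τi u) L' hLL1
      obtain ⟨x0, hx0⟩ : ∃ x0 : Matrix.SpecialLinearGroup (Fin (n + 2)) (ZMod 2),
          x0.1 = tqX L (τi u) := ⟨⟨_, hdet⟩, rfl⟩
      have hx0C : x0 ∈ tqC z0 := by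
        apply tq_mem z0 hz0
        · intro a
          rw [hx0]
          exact tqX_col L _ hL0 a
        · intro b
          rw [hx0]
          exact tqX_row L _ b
      refine ⟨⟨x0, hx0C⟩, ?_⟩
      rw [hι]
      have hT : tqT (⟨x0, hx0C⟩ : ↥(tqC z0)).1.1 = τi u := by
        show tqT x0.1 = _
        rw [hx0, tqX_T]
      have hLx : tqL (⟨x0, hx0C⟩ : ↥(tqC z0)).1.1 = L := by
        show tqL x0.1 = _
        rw [hx0, tqX_L]
      have hμx : μ ⟨x0, hx0C⟩ = m := by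
        apply huniq _ (hμM _) _ hm
        intro a
        rw [← hμ ⟨x0, hx0C⟩ a, hLx, hL]
      rw [hT, hμx, hτu u hu]
  exact ⟨ι, hinj, hιs, hrange, hιT⟩

end Aff

end AglIota

end Cfsg.Agent.Helper3
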