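import Mathlib
import Cfsg.Agent.Helper3.Pat.AglIota

set_option autoImplicit false

namespace Cfsg.Agent.Helper3

open Cfsg

theorem agl_large {G : Type*} [Group G] [Finite G] (n : ℕ) (hn : 1 ≤ n) (U M : Subgroup G)
    [U.Normal]
    (hU : Cfsg.IsElementaryAbelian 2 U) (hUcard : Nat.card ↥U = 2 ^ (n + 1)) (hUM : U ⊓ M = ⊥)
    (hUM' : U ⊔ M = ⊤) (hfaith : ∀ m ∈ M, (∀ u ∈ U, m * u * m⁻¹ = u) → m = 1)
    (hfull : ∀ φ : ↥U ≃* ↥U, ∃ m ∈ M, ∀ u : ↥U, ((φ u : ↥U) : G) = m * u * m⁻¹)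
    (Z : Subgroup G) (hZU : Z ≤ U) (hZ : Nat.card ↥Z = 2) (Q : Subgroup G)
    (hQ : Q = (Cfsg.pCore 2 ↥(Subgroup.centralizer (Z : Set G))).map
      (Subgroup.centralizer (Z : Set G)).subtype) :
    Cfsg.IsExtraspecial 2 ↥Q ∧ Nat.card ↥Q = 2 ^ (2 * n + 1) ∧
      (∃ E : Subgroup G, E ≤ Q ∧ Cfsg.IsElementaryAbelian 2 E ∧ Nat.card ↥E = 2 ^ (n + 1)) ∧
      Cfsg.IsLargeExtraspecial Q ∧
      ∃ K : Subgroup G, K ≤ Subgroup.centralizer (Z : Set G) ∧ Q ⊓ K = ⊥ ∧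
        Q ⊔ K = Subgroup.centralizer (Z : Set G) ∧
        Nonempty (↥K ≃* Matrix.GeneralLinearGroup (Fin n) (ZMod 2)) := by
  obtain ⟨y, hy, hyu⟩ := (Nat.card_eq_two_iff' (1 : ↥Z)).1 hZ
  have hz1 : y.1 ≠ 1 := fun h => hy (Subtype.ext h)
  have hc : Subgroup.centralizer (Z : Set G) = Subgroup.centralizer ({y.1} : Set G) := by
    ext g
    rw [Subgroup.mem_centralizer_iff, Subgroup.mem_centralizer_iff]
    constructor
    · intro h w hw
      rw [Set.mem_singleton_iff] at hw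
      rw [hw]
      exact h _ y.2
    · intro h w hw
      by_cases hw1 : (⟨w, hw⟩ : ↥Z) = 1
      · have hw0 : w = 1 := congrArg Subtype.val hw1
        rw [hw0, one_mul, mul_one]
      · have hwy : (⟨w, hw⟩ : ↥Z) = y := hyu _ hw1
        have hw' : w = y.1 := congrArg Subtype.val hwy
        rw [hw']
        exact h _ (Set.mem_singleton _)
  rw [hc] at hQ ⊢
  obtain ⟨τ, τi, hτU, hτm, hτi, hτu, hτz⟩ := ea_coords U hU n hUcard y.1 (hZU y.2) hz1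
  obtain ⟨z0, hz0⟩ : ∃ z0 : Matrix.SpecialLinearGroup (Fin (n + 2)) (ZMod 2),
      z0.1 = Matrix.transvection 0 1 1 :=
    ⟨⟨_, Matrix.det_transvection_of_ne 0 1 tq01 1⟩, rfl⟩
  obtain ⟨ι, hinj, hιs, hrange, hιT⟩ :=
    agl_iota U M τ τi hτU hτm hτi hτu hUM hUM' hfaith hfull z0 hz0
  obtain ⟨k0⟩ : Nonempty (Fin n) := ⟨⟨0, by omega⟩⟩
  have hLL : Matrix.transvection (k0.succ) (0 : Fin (n + 1)) (1 : ZMod 2) *
      Matrix.transvection (k0.succ) 0 1 = 1 := by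
    rw [Matrix.transvection_mul_transvection_same _ _ (Fin.succ_ne_zero k0)]
    have h2 : (1 : ZMod 2) + 1 = 0 := by decide
    rw [h2, Matrix.transvection_zero]
  obtain ⟨g, -, hg⟩ := agl_mu U M τ τi hτU hτm hτi hτu hfull _ _ hLL hLL
  have hv : (Matrix.transvection (k0.succ) (0 : Fin (n + 1)) (1 : ZMod 2)).mulVec
      (Pi.single 0 1) = (Fin.cases (1 : ZMod 2) (Pi.single k0 1) : Fin (n + 1) → ZMod 2) := by
    rw [Matrix.mulVec_single_one]
    funext i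
    show Matrix.transvection (k0.succ) (0 : Fin (n + 1)) (1 : ZMod 2) i 0 = _
    rw [Matrix.transvection, Matrix.add_apply, Matrix.one_apply, Matrix.single_apply]
    refine Fin.cases ?_ (fun l => ?_) i
    · rw [if_pos rfl, if_neg (fun h => Fin.succ_ne_zero k0 h.1), add_zero]
      rfl
    · rw [if_neg (Fin.succ_ne_zero l)]
      show _ = (Pi.single k0 (1 : ZMod 2) : Fin n → ZMod 2) l
      rw [Pi.single_apply, zero_add]
      by_cases h : l = k0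
      · rw [if_pos h, if_pos ⟨congrArg Fin.succ h.symm, rfl⟩]
      · rw [if_neg h, if_neg (fun h' => h (Fin.succ_inj.1 h'.1).symm)]
  have ha : ι (tqEl z0 hz0 1 0 (Pi.single k0 1)) =
      τ (Fin.cases (1 : ZMod 2) (Pi.single k0 1) : Fin (n + 1) → ZMod 2) := by
    have h1 : tqL (tqEl z0 hz0 1 0 (Pi.single k0 1)).1.1 = 1 := tqL_M 1 _
    rw [hιT _ h1]
    have h2 : tqT (tqEl z0 hz0 1 0 (Pi.single k0 1)).1.1 =
        (Fin.cases (1 : ZMod 2) (Pi.single k0 1) : Fin (n + 1) → ZMod 2) := tqT_M 1 0 _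
    rw [h2]
  have hga : g * y.1 * g⁻¹ = ι (tqEl z0 hz0 1 0 (Pi.single k0 1)) := by
    rw [ha, ← hv, hg, hτz]
  have hne : tqEl z0 hz0 1 0 (Pi.single k0 1) ≠ tqSel z0 hz0 := by
    intro h
    have h1 := congrArg ι h
    rw [ha, hιs] at h1
    have h2 := congrFun (agl_tau_inj τ τi hτi h1) k0.succ
    rw [Pi.single_eq_of_ne (Fin.succ_ne_zero k0)] at h2
    have h3 : (Pi.single k0 (1 : ZMod 2) : Fin n → ZMod 2) k0 = 0 := h2
    rw [Pi.single_eq_same] at h3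
    exact one_ne_zero h3
  exact cdataN_transport (tqSel z0 hz0) (tqRho z0 hz0).ker (tqE z0 hz0).range
    (tqSig z0 hz0).range (2 * n + 1) (n + 1) (Matrix.GeneralLinearGroup (Fin n) (ZMod 2))
    (tq_data' z0 hz0 hn) ι hinj y.1 (hιs.trans hτz) (by rw [← hτz]; exact hrange) g _
    (tqEl_mem z0 hz0 _ _ _) hga hne Q hQ

end Cfsg.Agent.Helper3
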