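import Mathlib
import Cfsg.Agent.Helper3.Pat.TrvQ2

set_option autoImplicit false

namespace Cfsg.Agent.Helper3

open Cfsg

theorem trv_conj_mat {n : ℕ} (k0 : Fin n) :
    Matrix.transvection 1 (tqS k0) (1 : ZMod 2) * tqM 1 0 0 =
      tqM 1 (Pi.single k0 1) 0 * Matrix.transvection 1 (tqS k0) 1 := by
  apply tq_ext
  · simp [trvR, trvL, tqM_00, tqM_01, tqM_0s, tqM_10, tqM_11, tqM_1s, tqM_s0, tqM_s1, tqM_ss,
      tq01, tq10, tqS_ne_zero, tqS_ne_one, zero_ne_tqS, one_ne_tqS, tqS_inj, Pi.single_apply]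
  · simp [trvR, trvL, tqM_00, tqM_01, tqM_0s, tqM_10, tqM_11, tqM_1s, tqM_s0, tqM_s1, tqM_ss,
      tq01, tq10, tqS_ne_zero, tqS_ne_one, zero_ne_tqS, one_ne_tqS, tqS_inj, Pi.single_apply]
  · intro l
    by_cases h : l = k0
    · subst h
      simp [trvR, trvL, tqM_00, tqM_01, tqM_0s, tqM_10, tqM_11, tqM_1s, tqM_s0, tqM_s1, tqM_ss,
        tq01, tq10, tqS_ne_zero, tqS_ne_one, zero_ne_tqS, one_ne_tqS, tqS_inj, Pi.single_apply]
      exact (zt_double 1).symm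
    · have h' : ¬ k0 = l := fun e => h e.symm
      simp [trvR, trvL, tqM_00, tqM_01, tqM_0s, tqM_10, tqM_11, tqM_1s, tqM_s0, tqM_s1, tqM_ss,
        tq01, tq10, tqS_ne_zero, tqS_ne_one, zero_ne_tqS, one_ne_tqS, tqS_inj, Pi.single_apply,
        h, h']
  · simp [trvR, trvL, tqM_00, tqM_01, tqM_0s, tqM_10, tqM_11, tqM_1s, tqM_s0, tqM_s1, tqM_ss,
      tq01, tq10, tqS_ne_zero, tqS_ne_one, zero_ne_tqS, one_ne_tqS, tqS_inj, Pi.single_apply]
  · simp [trvR, trvL, tqM_00, tqM_01, tqM_0s, tqM_10, tqM_11, tqM_1s, tqM_s0, tqM_s1, tqM_ss,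
      tq01, tq10, tqS_ne_zero, tqS_ne_one, zero_ne_tqS, one_ne_tqS, tqS_inj, Pi.single_apply]
  · intro l
    by_cases h : l = k0
    · subst h
      simp [trvR, trvL, tqM_00, tqM_01, tqM_0s, tqM_10, tqM_11, tqM_1s, tqM_s0, tqM_s1, tqM_ss,
        tq01, tq10, tqS_ne_zero, tqS_ne_one, zero_ne_tqS, one_ne_tqS, tqS_inj, Pi.single_apply]
    · have h' : ¬ k0 = l := fun e => h e.symm
      simp [trvR, trvL, tqM_00, tqM_01, tqM_0s, tqM_10, tqM_11, tqM_1s, tqM_s0, tqM_s1, tqM_ss,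
        tq01, tq10, tqS_ne_zero, tqS_ne_one, zero_ne_tqS, one_ne_tqS, tqS_inj, Pi.single_apply,
        h, h']
  · intro k
    simp [trvR, trvL, tqM_00, tqM_01, tqM_0s, tqM_10, tqM_11, tqM_1s, tqM_s0, tqM_s1, tqM_ss,
      tq01, tq10, tqS_ne_zero, tqS_ne_one, zero_ne_tqS, one_ne_tqS, tqS_inj, Pi.single_apply]
  · intro k
    simp [trvR, trvL, tqM_00, tqM_01, tqM_0s, tqM_10, tqM_11, tqM_1s, tqM_s0, tqM_s1, tqM_ss,
      tq01, tq10, tqS_ne_zero, tqS_ne_one, zero_ne_tqS, one_ne_tqS, tqS_inj, Pi.single_apply]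
  · intro k l
    simp [trvR, trvL, tqM_00, tqM_01, tqM_0s, tqM_10, tqM_11, tqM_1s, tqM_s0, tqM_s1, tqM_ss,
      tq01, tq10, tqS_ne_zero, tqS_ne_one, zero_ne_tqS, one_ne_tqS, tqS_inj, Pi.single_apply]

theorem trv_large (n : ℕ) (hn : 2 ≤ n)
    (z : Matrix.SpecialLinearGroup (Fin (n + 2)) (ZMod 2))
    (hz : (z : Matrix (Fin (n + 2)) (Fin (n + 2)) (ZMod 2)) = Matrix.transvection 0 1 1)
    (Q : Subgroup (Matrix.SpecialLinearGroup (Fin (n + 2)) (ZMod 2)))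
    (hQ : Q = (Cfsg.pCore 2 ↥(Subgroup.centralizer
      ({z} : Set (Matrix.SpecialLinearGroup (Fin (n + 2)) (ZMod 2))))).map
        (Subgroup.centralizer
          ({z} : Set (Matrix.SpecialLinearGroup (Fin (n + 2)) (ZMod 2)))).subtype) :
    Cfsg.IsExtraspecial 2 ↥Q ∧ Nat.card ↥Q = 2 ^ (2 * n + 1) ∧
      (∃ E : Subgroup (Matrix.SpecialLinearGroup (Fin (n + 2)) (ZMod 2)), E ≤ Q ∧
        Cfsg.IsElementaryAbelian 2 E ∧ Nat.card ↥E = 2 ^ (n + 1)) ∧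
      Cfsg.IsLargeExtraspecial Q ∧
      ∃ K : Subgroup (Matrix.SpecialLinearGroup (Fin (n + 2)) (ZMod 2)),
        K ≤ Subgroup.centralizer
          ({z} : Set (Matrix.SpecialLinearGroup (Fin (n + 2)) (ZMod 2))) ∧ Q ⊓ K = ⊥ ∧
        Q ⊔ K = Subgroup.centralizer
          ({z} : Set (Matrix.SpecialLinearGroup (Fin (n + 2)) (ZMod 2))) ∧
        Nonempty (↥K ≃* Matrix.SpecialLinearGroup (Fin n) (ZMod 2)) := by
  obtain ⟨k0⟩ : Nonempty (Fin n) := ⟨⟨0, by omega⟩⟩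
  obtain ⟨g, hg⟩ : ∃ g : Matrix.SpecialLinearGroup (Fin (n + 2)) (ZMod 2),
      g.1 = Matrix.transvection 1 (tqS k0) 1 :=
    ⟨⟨_, Matrix.det_transvection_of_ne 1 (tqS k0) (one_ne_tqS k0) 1⟩, rfl⟩
  have hga : g * z * g⁻¹ = (tqC z).subtype (tqEl z hz 1 (Pi.single k0 1) 0) := by
    rw [mul_inv_eq_iff_eq_mul]
    apply Subtype.ext
    rw [Matrix.SpecialLinearGroup.coe_mul, Matrix.SpecialLinearGroup.coe_mul, hg, hz,
      ← tqM_s_eq]
    exact trv_conj_mat k0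
  have hne : tqEl z hz 1 (Pi.single k0 1) 0 ≠ tqSel z hz := by
    intro h
    have h1 : tqM (1 : ZMod 2) (Pi.single k0 1) (0 : Fin n → ZMod 2) 0 (tqS k0) =
        tqM (1 : ZMod 2) (0 : Fin n → ZMod 2) 0 0 (tqS k0) :=
      congrArg (fun t : ↥(tqC z) => t.1.1 0 (tqS k0)) h
    rw [tqM_0s, tqM_0s, Pi.single_eq_same] at h1
    exact one_ne_zero h1
  exact cdataN_transport (tqSel z hz) (tqRho z hz).ker (tqE z hz).range (tqSig z hz).range
    (2 * n + 1) (n + 1) (Matrix.SpecialLinearGroup (Fin n) (ZMod 2)) (tq_data z hz hn)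
    (tqC z).subtype (Subgroup.subtype_injective _) z (tqSel_val z hz)
    (Subgroup.range_subtype _) g (tqEl z hz 1 (Pi.single k0 1) 0) (tqEl_mem z hz _ _ _) hga hne
    Q hQ

end Cfsg.Agent.Helper3
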